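import Cfsg.Agent.Lib.Twisted.AutH
import Cfsg.Agent.Lib.Twisted.Torus
import Cfsg.Agent.Lib.ChevAut.Field
import Cfsg.Agent.Lib.ChevAut.Coef
import Cfsg.Agent.Lib.Chevalley.CharDiag2
import Cfsg.Prelude.Def_KGroupFacts

/-!
# Automorphisms of twisted groups: the count
-/

set_option autoImplicit false
set_option linter.unusedSectionVars false

namespace Cfsg.Agent.Lib.Twisted

open Cfsg.Agent.Lib.Chevalley.SL2Hom (w h Rel)
open Cfsg.Agent.Lib.Chevalley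
open Cfsg.Lie Cfsg.Agent.Lib.ChevBN.Elem Cfsg.Agent.Lib.ChevBN.Entries Cfsg.Agent.Lib.ChevBN.Table
open Cfsg.Agent.Lib.ChevBN.Collect Cfsg.Agent.Lib.ChevBN.Rel Cfsg.Agent.Lib.ChevBN.Torus
open Cfsg.Agent.Lib.ChevBN.Monomial Cfsg.Agent.Lib.ChevBN.Core Cfsg.Agent.Lib.ChevBN.Pair
open Cfsg.Agent.Lib.ChevBN.Stmts Cfsg.Agent.Lib.ChevBN.Opp Cfsg.Agent.Lib.ChevBN.Perfect
open Cfsg.Agent.Lib.ChevOrder.Chev Cfsg.Agent.Lib.ChevOrder.BNCount
open Cfsg.Agent.Lib.BNPair.Basic Cfsg.Agent.Lib.BNPair.Parabolic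

universe u

section Abstract

variable {G : Type u} [Group G]

/-- Equality in `Out`. -/
theorem out_eq_iff' {θ θ' : G ≃* G} :
    (QuotientGroup.mk (s := Cfsg.Inn G) θ : Cfsg.Out G) = QuotientGroup.mk θ' ↔
      ∃ x : G, ∀ y, θ y = x * θ' y * x⁻¹ := by
  rw [QuotientGroup.eq_iff_div_mem]
  constructor
  · rintro ⟨x, hx⟩
    refine ⟨x, fun y => ?_⟩
    have h1 : θ = MulAut.conj x * θ' := by
      rw [hx]
      show θ = (θ / θ') * θ'
      simp
    have h2 := congrArg (fun f : MulAut G => f y) h1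
    simpa [MulAut.conj_apply, MulAut.mul_apply] using h2
  · rintro ⟨x, hx⟩
    refine ⟨x, ?_⟩
    apply MulEquiv.ext
    intro y
    have h1 : θ * θ'⁻¹ = MulAut.conj x := by
      apply MulEquiv.ext
      intro z
      have := hx (θ'⁻¹ z)
      rw [MulAut.conj_apply, MulAut.mul_apply, this]
      simp
    show MulAut.conj x y = (θ / θ') y
    rw [div_eq_mul_inv, h1]

/-- The count of the outer automorphism group from normal forms. -/
theorem out_count {A S : Type*} [CommGroup A] (R : Subgroup A) (Tr : (G ≃* G) → A → S → Prop)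
    (hex : ∀ c σ, ∃ θ, Tr θ c σ)
    (hdec : ∀ θ : G ≃* G, ∃ x, ∃ c σ, Tr (conjByT θ x) c σ)
    (heq : ∀ {θ θ' c c' σ σ'}, Tr θ c σ → Tr θ' c' σ' → (x : G) → (∀ y, θ y = x * θ' y * x⁻¹) →
      σ = σ' ∧ c'⁻¹ * c ∈ R)
    (hconv : ∀ {θ θ' c c' σ}, Tr θ c σ → Tr θ' c' σ → c'⁻¹ * c ∈ R → ∃ x : G, ∀ y, θ y = x * θ' y * x⁻¹) :
    Nat.card (Cfsg.Out G) = Nat.card (A ⧸ R) * Nat.card S := by
  classical
  choose tr htr using hex
  let Φ : (A ⧸ R) × S → Cfsg.Out G := fun p => QuotientGroup.mk (tr (Quotient.out p.1) p.2)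
  have hΦ : Function.Bijective Φ := by
    constructor
    · rintro ⟨q, σ⟩ ⟨q', σ'⟩ he
      obtain ⟨x, hx⟩ := out_eq_iff'.1 he
      obtain ⟨h2, h3⟩ := heq (htr _ σ) (htr _ σ') x hx
      subst h2
      have h5 : q = q' := by
        have h6 : ((Quotient.out q : A) : A ⧸ R) = (Quotient.out q' : A) := by
          rw [eq_comm, QuotientGroup.eq]
          exact h3
        rwa [QuotientGroup.out_eq', QuotientGroup.out_eq'] at h6
      rw [h5]
    · intro q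
      obtain ⟨θ, rfl⟩ := QuotientGroup.mk_surjective q
      obtain ⟨x, c, σ, h3⟩ := hdec θ
      refine ⟨((c : A ⧸ R), σ), ?_⟩
      show (QuotientGroup.mk _ : Cfsg.Out G) = _
      have h4 := htr (Quotient.out (c : A ⧸ R)) σ
      have h5 : c⁻¹ * (Quotient.out (c : A ⧸ R)) ∈ R := by
        have := QuotientGroup.out_eq' (s := R) c
        rw [eq_comm, QuotientGroup.eq] at this
        exact this
      obtain ⟨x₁, hx₁⟩ := hconv h4 h3 h5
      rw [out_eq_iff']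
      refine ⟨x₁ * x⁻¹, fun y => ?_⟩
      rw [hx₁, conjByT_apply]
      group
  rw [← Nat.card_eq_of_bijective Φ hΦ, Nat.card_prod]

/-- An automorphism of the ambient group preserving a finite subgroup restricts to it. -/
theorem exists_aut_of {Γ : Type*} [Group Γ] {G1 : Subgroup Γ} [Finite ↥G1] (E : Γ ≃* Γ) (hE : ∀ g ∈ G1, E g ∈ G1) :
    ∃ θ : ↥G1 ≃* ↥G1, ∀ g : ↥G1, ((θ g : ↥G1) : Γ) = E g := by
  let f : ↥G1 →* ↥G1 :=
    { toFun := fun g => ⟨E g, hE g g.2⟩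
      map_one' := Subtype.ext (by simp)
      map_mul' := fun a b => Subtype.ext (by simp) }
  have hinj : Function.Injective f := fun a b he =>
    Subtype.ext (E.injective (congrArg Subtype.val he))
  exact ⟨MulEquiv.ofBijective f (Finite.injective_iff_bijective.mp hinj), fun g => rfl⟩

end Abstract

variable {D : ChevalleyDatum} {F : Type u} [Field F] {η : ℕ → ℕ → ℤ}

section Efs

open Cfsg.Agent.Lib.ChevAut

variable (hR : Sys D F η) (hT : Tbl D) (hck : CharDiag.chainCk D = true)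

/-- The map of a character and a field automorphism. -/
noncomputable def Efs (χ : ℕ → Fˣ) (σ : F ≃+* F) : GL D.Idx F ≃* GL D.Idx F :=
  (fieldGL D σ).trans (MulAut.conj (charGL χ))

include hR hT hck in
theorem Efs_X {χ : ℕ → Fˣ} (hχ : D.IsRootCharacter χ) (σ : F ≃+* F) {r : ℕ} (hr : r < D.nroots) (t : F) :
    Efs (D := D) χ σ (X hR.toAddRel r t) = X hR.toAddRel r ((χ r : F) * σ t) := by
  show MulAut.conj (charGL χ) (fieldGL D σ (X hR.toAddRel r t)) = _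
  rw [fieldGL_X, MulAut.conj_apply]
  exact CharDiag.conj_X hR hT hck hχ (charGL_coe χ) hr _

include hR hT hck in
theorem Efs_xJ {χ : ℕ → Fˣ} (hχ : D.IsRootCharacter χ) (σ : F ≃+* F) {J : List ℕ} (hl : ∀ i ∈ J, i < D.rank)
    (d : ℕ → F) :
    Efs (D := D) χ σ (xJ hR.toAddRel J d) = xJ hR.toAddRel J (fun i => (χ (D.simple i) : F) * σ (d i)) := by
  induction J with
  | nil => simp
  | cons i J ih =>
    simp only [xJ_cons, map_mul]
    rw [Efs_X hR hT hck hχ σ (hT.simple_lt (hl i (by simp))), ih (fun k hk => hl k (by simp [hk]))]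

include hR hT hck in
theorem Efs_yJ {χ : ℕ → Fˣ} (hχ : D.IsRootCharacter χ) (σ : F ≃+* F) {J : List ℕ} (hl : ∀ i ∈ J, i < D.rank)
    (d : ℕ → F) :
    Efs (D := D) χ σ (yJ hR.toAddRel J d) = yJ hR.toAddRel J (fun i => ((χ (D.simple i))⁻¹ : Fˣ) * σ (d i)) := by
  induction J with
  | nil => simp
  | cons i J ih =>
    simp only [yJ_cons, map_mul]
    have hs := hT.simple_lt (hl i (by simp))
    rw [Efs_X hR hT hck hχ σ (hT.neg_lt hs), ih (fun k hk => hl k (by simp [hk])), hχ.1 _ hs]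

end Efs

namespace OrbD

variable {hR : Sys D F η} {hT : Tbl D} {T : Tw hR.toAddRel} {Js cl : List (List ℕ)}
  {G1 : Subgroup (GL D.Idx F)} {I : Inst hR hT T Js cl G1} {J : List ℕ} {L : Type*} [Field L]
  {ε : ℕ → L →+* F} (O : OrbD I J ε)
  (hc : ∀ i < D.rank, D.cartan i (D.simple i) = 2) (hη : ∀ i < D.rank, η i (D.simple i) = -1)
  [Finite F] [Finite L]

include O

/-- Elements of the diagonal subgroup act by a scalar on a root group of an orbit. -/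
theorem scal {h' : ↥G1} (hh : (h' : GL D.Idx F) ∈ D.diagonalSubgroup F) :
    ∃ c : Lˣ, ∀ t, h' * O.xG t * h'⁻¹ = O.xG ((c : L) * t) ∧
      h' * O.yG hc hη t * h'⁻¹ = O.yG hc hη (((c⁻¹ : Lˣ) : L) * t) := by
  obtain ⟨c, σ, hcσ⟩ := O.triple hc hη (MulAut.conj h')
    (fun g hg => H_conj_gen hR hT hh (fun r hr => by
      obtain ⟨i, hi, rfl⟩ := hr
      exact hT.simple_lt (O.hl i hi)) hg)
    (fun g hg => H_conj_gen hR hT hh (fun r hr => by
      obtain ⟨i, hi, rfl⟩ := hr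
      exact hT.neg_lt (hT.simple_lt (O.hl i hi))) hg)
  obtain ⟨κ, -, -, hκ⟩ := exists_of_mem_H hR hT hh
  obtain ⟨i, hi⟩ := O.exists_mem
  have hs := hT.simple_lt (O.hl i hi)
  have key : ∀ t : L, σ t = t := by
    intro t
    have h1 : ∀ u : L, (κ (D.simple i)) * ε i u = ε i ((c : L) * σ u) := by
      intro u
      have h2 := congrArg Subtype.val (hcσ u).1
      rw [MulAut.conj_apply] at h2
      have h3 : ((h' * O.xG u * h'⁻¹ : ↥G1) : GL D.Idx F) =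
          xJ hR.toAddRel J (fun j => κ (D.simple j) * ε j u) := by
        show (h' : GL D.Idx F) * xJ hR.toAddRel J (fun j => ε j u) * (h' : GL D.Idx F)⁻¹ = _
        exact conj_scal hR hT (fun j hj a => hκ _ (hT.simple_lt (O.hl j hj)) a) _
      rw [h3] at h2
      exact OrthDat.xJ_coord hR hT I.orth I.comm O.hJ h2 hi
    have h4 := h1 1
    have h5 := h1 t
    simp only [map_one, mul_one, map_mul] at h4 h5
    rw [h4] at h5
    have hne : ε i (c : L) ≠ 0 := by simp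
    have h6 := mul_left_cancel₀ hne h5
    exact ((ε i).injective h6).symm
  refine ⟨c, fun t => ?_⟩
  have := hcσ t
  rw [key, MulAut.conj_apply, MulAut.conj_apply] at this
  exact this

/-- The inverse scalar on the opposite root groups follows from the scalar on the root groups. -/
theorem scal_y {h' : ↥G1} (hh : (h' : GL D.Idx F) ∈ D.diagonalSubgroup F) {c : Lˣ}
    (hx : ∀ t, h' * O.xG t * h'⁻¹ = O.xG ((c : L) * t)) (t : L) :
    h' * O.yG hc hη t * h'⁻¹ = O.yG hc hη (((c⁻¹ : Lˣ) : L) * t) := by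
  obtain ⟨c', hc'⟩ := O.scal hc hη hh
  have e : c' = c := by
    apply Units.ext
    have h1 := (hc' 1).1
    rw [hx 1] at h1
    have h2 := O.inj_x _ _ (congrArg Subtype.val h1)
    simpa using h2.symm
  rw [← e]
  exact (hc' t).2

end OrbD

theorem xJ_congr {hA : AddRel D F} {J : List ℕ} {d d' : ℕ → F} (h : ∀ i ∈ J, d i = d' i) : xJ hA J d = xJ hA J d' := by
  rw [xJ, xJ]
  congr 1
  exact List.map_congr_left fun i hi => by rw [h i hi]

theorem yJ_congr {hA : AddRel D F} {J : List ℕ} {d d' : ℕ → F} (h : ∀ i ∈ J, d i = d' i) : yJ hA J d = yJ hA J d' := by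
  rw [yJ, yJ]
  congr 1
  exact List.map_congr_left fun i hi => by rw [h i hi]

/-- A family of orbits parametrised by subfields. -/
structure OFam {hR : Sys D F η} {hT : Tbl D} {T : Tw hR.toAddRel} {Js cl : List (List ℕ)}
    {G1 : Subgroup (GL D.Idx F)} (I : Inst hR hT T Js cl G1) (ι : Type*) where
  S : ι → Subfield F
  J : ι → List ℕ
  e : ι → ℕ → F →+* F
  orb : ∀ a, OrbD I (J a) (fun i => (e a i).comp (S a).subtype)
  cover : ∀ K ∈ Js, ∃ a, J a = K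
  J_inj : ∀ a b, J a = J b → a = b
  comm_e : ∀ a i (σ : F ≃+* F) t, e a i (σ t) = σ (e a i t)
  stable : ∀ a (σ : F ≃+* F) t, t ∈ S a → σ t ∈ S a
  top : ∃ a, ∀ t, t ∈ S a
  gens : ∀ g ∈ G1, g ∈ Subgroup.closure (⋃ a, Set.range (xL hR.toAddRel (J a) (fun i => (e a i).comp (S a).subtype)) ∪
    Set.range (yL hR.toAddRel (J a) (fun i => (e a i).comp (S a).subtype)))

namespace OFam

variable {hR : Sys D F η} {hT : Tbl D} {T : Tw hR.toAddRel} {Js cl : List (List ℕ)}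
  {G1 : Subgroup (GL D.Idx F)} {I : Inst hR hT T Js cl G1} {ι : Type*} (Fm : OFam I ι)
  (hc : ∀ i < D.rank, D.cartan i (D.simple i) = 2) (hη : ∀ i < D.rank, η i (D.simple i) = -1)
  [Finite F]

/-- The restriction of a field automorphism. -/
def res (a : ι) (σ : F ≃+* F) : ↥(Fm.S a) ≃+* ↥(Fm.S a) where
  toFun t := ⟨σ t, Fm.stable a σ t t.2⟩
  invFun t := ⟨σ.symm t, Fm.stable a σ.symm t t.2⟩
  left_inv t := Subtype.ext (by simp)
  right_inv t := Subtype.ext (by simp)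
  map_mul' s t := Subtype.ext (by simp)
  map_add' s t := Subtype.ext (by simp)

@[simp] theorem res_coe (a : ι) (σ : F ≃+* F) (t : ↥(Fm.S a)) : ((Fm.res a σ t : ↥(Fm.S a)) : F) = σ t := rfl

/-- The normal form of an automorphism. -/
def Tr (θ : ↥G1 ≃* ↥G1) (c : ∀ a, (↥(Fm.S a))ˣ) (σ : F ≃+* F) : Prop :=
  ∀ a t, θ ((Fm.orb a).xG t) = (Fm.orb a).xG ((c a : ↥(Fm.S a)) * Fm.res a σ t) ∧
    θ ((Fm.orb a).yG hc hη t) = (Fm.orb a).yG hc hη (((c a)⁻¹ : (↥(Fm.S a))ˣ) * Fm.res a σ t)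

/-- The subgroup of scalars realised by the diagonal subgroup. -/
def R : Subgroup (∀ a, (↥(Fm.S a))ˣ) where
  carrier := {c | ∃ h' : ↥G1, (h' : GL D.Idx F) ∈ D.diagonalSubgroup F ∧
    ∀ a t, h' * (Fm.orb a).xG t * h'⁻¹ = (Fm.orb a).xG ((c a : ↥(Fm.S a)) * t)}
  mul_mem' := by
    rintro c c' ⟨h₁, hh₁, e₁⟩ ⟨h₂, hh₂, e₂⟩
    refine ⟨h₁ * h₂, Subgroup.mul_mem _ hh₁ hh₂, fun a t => ?_⟩
    have e : h₁ * h₂ * (Fm.orb a).xG t * (h₁ * h₂)⁻¹ = h₁ * (h₂ * (Fm.orb a).xG t * h₂⁻¹) * h₁⁻¹ := by group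
    rw [e, e₂, e₁, Pi.mul_apply, Units.val_mul, mul_assoc]
  one_mem' := ⟨1, Subgroup.one_mem _, fun a t => by simp⟩
  inv_mem' := by
    rintro c ⟨h₁, hh₁, e₁⟩
    refine ⟨h₁⁻¹, Subgroup.inv_mem _ hh₁, fun a t => ?_⟩
    have e := e₁ a (((c a)⁻¹ : (↥(Fm.S a))ˣ) * t)
    rw [← mul_assoc, ← Units.val_mul, mul_inv_cancel, Units.val_one, one_mul] at e
    rw [Pi.inv_apply, ← e]
    group

theorem mem_R {c : ∀ a, (↥(Fm.S a))ˣ} : c ∈ Fm.R ↔ ∃ h' : ↥G1, (h' : GL D.Idx F) ∈ D.diagonalSubgroup F ∧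
    ∀ a t, h' * (Fm.orb a).xG t * h'⁻¹ = (Fm.orb a).xG ((c a : ↥(Fm.S a)) * t) := Iff.rfl

include Fm in
/-- Homomorphisms agreeing on the generators are equal. -/
theorem aut_ext {θ θ' : ↥G1 ≃* ↥G1}
    (h1 : ∀ a t, θ ((Fm.orb a).xG t) = θ' ((Fm.orb a).xG t))
    (h2 : ∀ a t, θ ((Fm.orb a).yG hc hη t) = θ' ((Fm.orb a).yG hc hη t)) : θ = θ' := by
  apply MulEquiv.ext
  intro g
  let K : Subgroup (GL D.Idx F) := (MonoidHom.eqLocus θ.toMonoidHom θ'.toMonoidHom).map G1.subtype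
  have hle : Subgroup.closure (⋃ a, Set.range (xL hR.toAddRel (Fm.J a) (fun i => (Fm.e a i).comp (Fm.S a).subtype)) ∪
      Set.range (yL hR.toAddRel (Fm.J a) (fun i => (Fm.e a i).comp (Fm.S a).subtype))) ≤ K := by
    rw [Subgroup.closure_le]
    intro z hz
    obtain ⟨a, hz⟩ := Set.mem_iUnion.1 hz
    rcases hz with ⟨t, rfl⟩ | ⟨t, rfl⟩
    · exact ⟨(Fm.orb a).xG t, h1 a t, rfl⟩
    · exact ⟨(Fm.orb a).yG hc hη t, h2 a t, rfl⟩
  obtain ⟨z, hz, e⟩ := hle (Fm.gens g g.2)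
  have : z = g := Subtype.ext e
  rw [← this]
  exact hz

include Fm in
/-- Characters with prescribed values on the orbits. -/
theorem exists_chi (hD : D ∈ [chevG2, chevB2, chevD4, chevF4, chevE6, chevE7, chevE8])
    (c : ∀ a, (↥(Fm.S a))ˣ) :
    ∃ χ : ℕ → Fˣ, D.IsRootCharacter χ ∧ (∀ a i, i ∈ Fm.J a → (χ (D.simple i) : F) = Fm.e a i (c a : ↥(Fm.S a))) := by
  classical
  let u : ι → ℕ → Fˣ := fun a j => Units.map (((Fm.e a j).comp (Fm.S a).subtype : ↥(Fm.S a) →+* F) : ↥(Fm.S a) →* F) (c a)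
  let g : ℕ → Fˣ := fun j => if h : ∃ a, j ∈ Fm.J a then u h.choose j else 1
  obtain ⟨χ, hχ, hs⟩ := Cfsg.Agent.Lib.ChevAut.exists_char hD g
  refine ⟨χ, hχ, fun a i hi => ?_⟩
  rw [hs i ((Fm.orb a).hl i hi)]
  have hex : ∃ a, i ∈ Fm.J a := ⟨a, hi⟩
  simp only [g, dif_pos hex]
  have hb := hex.choose_spec
  have e : hex.choose = a := Fm.J_inj _ _ (I.orth.disj _ (Fm.orb _).hJ _ (Fm.orb a).hJ i hb hi)
  rw [e]
  rfl

include Fm in
/-- All normal forms are realised. -/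
theorem exists_tr (hD : D ∈ [chevG2, chevB2, chevD4, chevF4, chevE6, chevE7, chevE8])
    (hck : CharDiag.chainCk D = true) (c : ∀ a, (↥(Fm.S a))ˣ) (σ : F ≃+* F) :
    ∃ θ, Fm.Tr hc hη θ c σ := by
  obtain ⟨χ, hχ, hs⟩ := Fm.exists_chi hD c
  have hx : ∀ a (t : ↥(Fm.S a)), Efs (D := D) χ σ (xL hR.toAddRel (Fm.J a) (fun i => (Fm.e a i).comp (Fm.S a).subtype) t) =
      xL hR.toAddRel (Fm.J a) (fun i => (Fm.e a i).comp (Fm.S a).subtype) ((c a : ↥(Fm.S a)) * Fm.res a σ t) := by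
    intro a t
    rw [xL, xL, Efs_xJ hR hT hck hχ σ (Fm.orb a).hl]
    refine xJ_congr fun i hi => ?_
    rw [hs a i hi]
    simp only [RingHom.comp_apply, map_mul, Subfield.subtype_apply, res_coe]
    rw [Fm.comm_e]
  have hy : ∀ a (t : ↥(Fm.S a)), Efs (D := D) χ σ (yL hR.toAddRel (Fm.J a) (fun i => (Fm.e a i).comp (Fm.S a).subtype) t) =
      yL hR.toAddRel (Fm.J a) (fun i => (Fm.e a i).comp (Fm.S a).subtype) (((c a)⁻¹ : (↥(Fm.S a))ˣ) * Fm.res a σ t) := by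
    intro a t
    rw [yL, yL, Efs_yJ hR hT hck hχ σ (Fm.orb a).hl]
    refine yJ_congr fun i hi => ?_
    have h1 := hs a i hi
    have h2 : (((χ (D.simple i))⁻¹ : Fˣ) : F) = Fm.e a i (((c a)⁻¹ : (↥(Fm.S a))ˣ) : ↥(Fm.S a)) := by
      rw [Units.val_inv_eq_inv_val, h1, Units.val_inv_eq_inv_val]
      simp
    rw [h2]
    simp only [RingHom.comp_apply, map_mul, Subfield.subtype_apply, res_coe]
    rw [Fm.comm_e]
  have hG : G1 ≤ G1.comap (Efs (D := D) χ σ).toMonoidHom := by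
    intro g hg
    have hcl := Fm.gens g hg
    refine (?_ : Subgroup.closure _ ≤ G1.comap (Efs (D := D) χ σ).toMonoidHom) hcl
    rw [Subgroup.closure_le]
    intro z hz
    obtain ⟨a, hz⟩ := Set.mem_iUnion.1 hz
    rcases hz with ⟨t, rfl⟩ | ⟨t, rfl⟩
    · show Efs (D := D) χ σ _ ∈ G1
      rw [hx]
      exact (Fm.orb a).mem_x _
    · show Efs (D := D) χ σ _ ∈ G1
      rw [hy]
      exact (Fm.orb a).mem_y hc hη _
  obtain ⟨θ, hθ⟩ := exists_aut_of (G1 := G1) (Efs (D := D) χ σ) (fun g hg => hG hg)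
  refine ⟨θ, fun a t => ⟨Subtype.ext ?_, Subtype.ext ?_⟩⟩
  · rw [hθ]
    exact hx a t
  · rw [hθ]
    exact hy a t

variable {P : Cfsg.BNPair ↥G1} (hB : P.B = (D.borelSubgroup F ⊓ G1).subgroupOf G1)
  (hN : P.N = (D.monomialSubgroup F ⊓ G1).subgroupOf G1)
  (hS : P.S = {g : ↥G1 | (g : GL D.Idx F) ∈ Set.range I.fd.n})

include Fm hB hN hS in
/-- Normal forms of inner-equivalent automorphisms differ by the image of the diagonal subgroup. -/
theorem tr_eq {w₀ : List (List ℕ)} (hw₀ : StarW D Js w₀) {θ θ' : ↥G1 ≃* ↥G1} {c c' : ∀ a, (↥(Fm.S a))ˣ}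
    {σ σ' : F ≃+* F} (h : Fm.Tr hc hη θ c σ) (h' : Fm.Tr hc hη θ' c' σ') (x : ↥G1)
    (hx : ∀ y, θ y = x * θ' y * x⁻¹) [∀ a, Finite (↥(Fm.S a))] : σ = σ' ∧ c'⁻¹ * c ∈ Fm.R := by
  have hsx : ∀ a (t : ↥(Fm.S a)), ∃ t', ((c' a : ↥(Fm.S a)) * Fm.res a σ' t') = t := by
    intro a t
    refine ⟨(Fm.res a σ').symm (((c' a)⁻¹ : (↥(Fm.S a))ˣ) * t), ?_⟩
    rw [RingEquiv.apply_symm_apply, ← mul_assoc, ← Units.val_mul, mul_inv_cancel, Units.val_one, one_mul]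
  have hsy : ∀ a (t : ↥(Fm.S a)), ∃ t', (((c' a)⁻¹ : (↥(Fm.S a))ˣ) * Fm.res a σ' t') = t := by
    intro a t
    refine ⟨(Fm.res a σ').symm ((c' a : ↥(Fm.S a)) * t), ?_⟩
    rw [RingEquiv.apply_symm_apply, ← mul_assoc, ← Units.val_mul, inv_mul_cancel, Units.val_one, one_mul]
  have hH : (x : GL D.Idx F) ∈ D.diagonalSubgroup F := by
    refine I.mem_H_of_conj hB hN hS hc hη hw₀ (fun K hK => ?_) (fun j g hg => ?_) (fun j g hg => ?_)
    · obtain ⟨a, rfl⟩ := Fm.cover K hK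
      exact ⟨_, inferInstance, inferInstance, _, Fm.orb a⟩
    · obtain ⟨a, ha⟩ := Fm.cover j.1 j.2
      rw [← ha] at hg ⊢
      obtain ⟨t, ht⟩ := (Fm.orb a).surj_x _ g.2 hg
      obtain ⟨t', ht'⟩ := hsx a t
      have e : g = θ' ((Fm.orb a).xG t') := by
        rw [(h' a t').1, ht']
        exact Subtype.ext ht
      rw [e, ← hx, (h a t').1]
      exact xJ_mem _ _
    · obtain ⟨a, ha⟩ := Fm.cover j.1 j.2
      rw [← ha] at hg ⊢
      obtain ⟨t, ht⟩ := (Fm.orb a).surj_y hc hη g.2 hg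
      obtain ⟨t', ht'⟩ := hsy a t
      have e : g = θ' ((Fm.orb a).yG hc hη t') := by
        rw [(h' a t').2, ht']
        exact Subtype.ext ht
      rw [e, ← hx, (h a t').2]
      exact yJ_mem _ _
  have hk := fun a => (Fm.orb a).scal hc hη hH
  choose k hk using hk
  have hval : ∀ a (t : ↥(Fm.S a)), (c a : ↥(Fm.S a)) * Fm.res a σ t =
      (k a : ↥(Fm.S a)) * ((c' a : ↥(Fm.S a)) * Fm.res a σ' t) := by
    intro a t
    apply (Fm.orb a).inj_x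
    have h1 : (Fm.orb a).xG ((c a : ↥(Fm.S a)) * Fm.res a σ t) =
        (Fm.orb a).xG ((k a : ↥(Fm.S a)) * ((c' a : ↥(Fm.S a)) * Fm.res a σ' t)) := by
      rw [← (h a t).1, hx, (h' a t).1, (hk a _).1]
    exact congrArg Subtype.val h1
  have hc1 : ∀ a, c a = k a * c' a := by
    intro a
    apply Units.ext
    have := hval a 1
    simpa using this
  have hσ : ∀ a (t : ↥(Fm.S a)), Fm.res a σ t = Fm.res a σ' t := by
    intro a t
    have h1 := hval a t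
    rw [hc1 a, Units.val_mul, mul_assoc] at h1
    have h2 := mul_left_cancel₀ (Units.ne_zero _) h1
    exact mul_left_cancel₀ (Units.ne_zero _) h2
  refine ⟨?_, x, hH, fun a t => ?_⟩
  · obtain ⟨a, ha⟩ := Fm.top
    apply RingEquiv.ext
    intro t
    have := hσ a ⟨t, ha t⟩
    exact congrArg Subtype.val this
  · have e : (c'⁻¹ * c) a = k a := by
      rw [Pi.mul_apply, Pi.inv_apply, hc1 a, mul_comm (k a), inv_mul_cancel_left]
    rw [e]
    exact (hk a t).1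

include Fm in
/-- Normal forms differing by an element of the image of the diagonal subgroup are conjugate. -/
theorem tr_conv {θ θ' : ↥G1 ≃* ↥G1} {c c' : ∀ a, (↥(Fm.S a))ˣ} {σ : F ≃+* F}
    (h : Fm.Tr hc hη θ c σ) (h' : Fm.Tr hc hη θ' c' σ) (hcc : c'⁻¹ * c ∈ Fm.R) [∀ a, Finite (↥(Fm.S a))] :
    ∃ x : ↥G1, ∀ y, θ y = x * θ' y * x⁻¹ := by
  obtain ⟨h₁, hh₁, e₁⟩ := hcc
  refine ⟨h₁, fun y => ?_⟩
  have hu : ∀ a, (c'⁻¹ * c) a * c' a = c a := by
    intro a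
    rw [Pi.mul_apply, Pi.inv_apply]
    rw [mul_comm ((c' a)⁻¹) (c a), inv_mul_cancel_right]
  have hu' : ∀ a, ((c'⁻¹ * c) a)⁻¹ * (c' a)⁻¹ = (c a)⁻¹ := by
    intro a
    rw [← hu a, mul_inv]
  have key : θ = θ'.trans (MulAut.conj h₁) := by
    apply Fm.aut_ext hc hη
    · intro a t
      rw [MulEquiv.trans_apply, (h a t).1, (h' a t).1, MulAut.conj_apply, e₁, ← mul_assoc, ← Units.val_mul, hu]
    · intro a t
      rw [MulEquiv.trans_apply, (h a t).2, (h' a t).2, MulAut.conj_apply,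
        (Fm.orb a).scal_y hc hη hh₁ (e₁ a), ← mul_assoc, ← Units.val_mul, hu']
  rw [key]
  rfl

include Fm hB hN hS in
/-- The main count. -/
theorem card_out {p : ℕ} [Fact p.Prime] [∀ a, Finite (↥(Fm.S a))]
    (hSyl : ∃ P : Sylow p ↥G1, (P : Subgroup ↥G1) = (D.posUnipotent F).subgroupOf G1)
    (hD : D ∈ [chevG2, chevB2, chevD4, chevF4, chevE6, chevE7, chevE8])
    (hck : CharDiag.chainCk D = true)
    {w₀ : List (List ℕ)} (hw₀ : StarW D Js w₀)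
    (hid : ∀ θ : ↥G1 ≃* ↥G1, PresUT θ → PresVT θ → ∀ (J : {J : List ℕ // J ∈ Js}) (g : ↥G1),
      (g : GL D.Idx F) ∈ gen hR.toAddRel (psiL D J.1) → ((θ g : ↥G1) : GL D.Idx F) ∈ gen hR.toAddRel (psiL D J.1))
    (hlink : ∀ (θ : ↥G1 ≃* ↥G1) (c : ∀ a, (↥(Fm.S a))ˣ) (σ : ∀ a, ↥(Fm.S a) ≃+* ↥(Fm.S a)),
      (∀ a t, θ ((Fm.orb a).xG t) = (Fm.orb a).xG ((c a : ↥(Fm.S a)) * σ a t) ∧
        θ ((Fm.orb a).yG hc hη t) = (Fm.orb a).yG hc hη (((c a)⁻¹ : (↥(Fm.S a))ˣ) * σ a t)) →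
      ∃ σ₀ : F ≃+* F, ∀ a, σ a = Fm.res a σ₀) :
    Nat.card (Cfsg.Out ↥G1) = Nat.card ((∀ a, (↥(Fm.S a))ˣ) ⧸ Fm.R) * Nat.card (F ≃+* F) := by
  refine out_count Fm.R (Fm.Tr hc hη) (fun c σ => Fm.exists_tr hc hη hD hck c σ) (fun θ => ?_)
    (fun h h' x hx => Fm.tr_eq hc hη hB hN hS hw₀ h h' x hx) (fun h h' hcc => Fm.tr_conv hc hη h h' hcc)
  obtain ⟨x₁, h₁⟩ := exists_presUT hSyl θ
  obtain ⟨x₂, h₂, h₃⟩ := I.exists_presV hB hN ⟨w₀, hw₀.mem, hw₀.neg⟩ h₁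
  have e : conjByT (conjByT θ x₁) x₂ = conjByT θ (x₁ * x₂) := by
    apply MulEquiv.ext
    intro y
    simp only [conjByT_apply]
    group
  rw [e] at h₂ h₃
  set θ₁ := conjByT θ (x₁ * x₂) with hθ₁
  have htr := fun a => (Fm.orb a).triple hc hη θ₁
    (fun g hg => hid θ₁ h₂ h₃ ⟨Fm.J a, (Fm.orb a).hJ⟩ g hg)
    (fun g hg => I.neg_of_pos hw₀ hid h₂ h₃ ⟨Fm.J a, (Fm.orb a).hJ⟩ g hg)
  choose c σ hcσ using htr
  obtain ⟨σ₀, hσ₀⟩ := hlink θ₁ c σ (fun a t => hcσ a t)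
  refine ⟨x₁ * x₂, c, σ₀, fun a t => ?_⟩
  rw [← hσ₀ a]
  exact hcσ a t

include Fm hc hη in
/-- The order of the image of the diagonal subgroup. -/
theorem card_R [∀ a, Finite (↥(Fm.S a))] :
    Nat.card Fm.R = Nat.card ↥(D.diagonalSubgroup F ⊓ G1) := by
  classical
  have hex : ∀ h : ↥(D.diagonalSubgroup F ⊓ G1), ∀ a, ∃ k : (↥(Fm.S a))ˣ, ∀ t,
      (⟨h.1, h.2.2⟩ : ↥G1) * (Fm.orb a).xG t * (⟨h.1, h.2.2⟩ : ↥G1)⁻¹ = (Fm.orb a).xG ((k : ↥(Fm.S a)) * t) := by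
    intro h a
    obtain ⟨k, hk⟩ := (Fm.orb a).scal hc hη (h' := ⟨h.1, h.2.2⟩) h.2.1
    exact ⟨k, fun t => (hk t).1⟩
  choose k hk using hex
  have hmem : ∀ h, k h ∈ Fm.R := fun h => ⟨⟨h.1, h.2.2⟩, h.2.1, hk h⟩
  have hkap : ∀ (h : ↥(D.diagonalSubgroup F ⊓ G1)) (a : ι) (i : Fin D.rank), (i : ℕ) ∈ Fm.J a →
      (kapU hR hT ⟨h.1, h.2.1⟩ i : F) = Fm.e a i (k h a : ↥(Fm.S a)) := by
    intro h a i hi
    obtain ⟨κ, -, -, hκ⟩ := exists_of_mem_H hR hT h.2.1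
    have h1 := congrArg Subtype.val (hk h a 1)
    have h2 : (((⟨h.1, h.2.2⟩ : ↥G1) * (Fm.orb a).xG 1 * (⟨h.1, h.2.2⟩ : ↥G1)⁻¹ : ↥G1) : GL D.Idx F) =
        xJ hR.toAddRel (Fm.J a) (fun j => κ (D.simple j) * Fm.e a j ((1 : ↥(Fm.S a)) : F)) := by
      show h.1 * xJ hR.toAddRel (Fm.J a) (fun j => Fm.e a j ((1 : ↥(Fm.S a)) : F)) * h.1⁻¹ = _
      exact conj_scal hR hT (fun j hj a' => hκ _ (hT.simple_lt ((Fm.orb a).hl j hj)) a') _
    rw [h2] at h1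
    have h3 := OrthDat.xJ_coord hR hT I.orth I.comm (Fm.orb a).hJ h1 hi
    apply kapU_eq hR hT
    show h.1 * _ * h.1⁻¹ = _
    rw [hκ _ (hT.simple_lt i.2)]
    congr 1
    simp only [OneMemClass.coe_one, map_one, mul_one, RingHom.comp_apply, Subfield.subtype_apply] at h3
    rw [mul_one, h3]
  let f : ↥(D.diagonalSubgroup F ⊓ G1) → Fm.R := fun h => ⟨k h, hmem h⟩
  have hf : Function.Bijective f := by
    constructor
    · intro h₁ h₂ he
      have he' : k h₁ = k h₂ := congrArg Subtype.val he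
      have h3 : (⟨h₁.1, h₁.2.1⟩ : D.diagonalSubgroup F) = ⟨h₂.1, h₂.2.1⟩ := by
        apply kapU_inj hR hT
        funext i
        obtain ⟨K, hK, hiK⟩ := I.orth.cover i i.2
        obtain ⟨a, rfl⟩ := Fm.cover K hK
        apply Units.ext
        rw [hkap h₁ a i hiK, hkap h₂ a i hiK, he']
      exact Subtype.ext (congrArg (fun x : D.diagonalSubgroup F => x.1) h3)
    · rintro ⟨c, h', hh', hc'⟩
      refine ⟨⟨h'.1, hh', h'.2⟩, Subtype.ext ?_⟩
      funext a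
      apply Units.ext
      have h1 := (hk ⟨h'.1, hh', h'.2⟩ a 1).symm.trans (hc' a 1)
      have h2 := (Fm.orb a).inj_x _ _ (congrArg Subtype.val h1)
      simpa using h2
  rw [Nat.card_eq_of_bijective f hf]

include Fm hc hη in
/-- The order of the quotient. -/
theorem card_quot [∀ a, Finite (↥(Fm.S a))] :
    Nat.card ((∀ a, (↥(Fm.S a))ˣ) ⧸ Fm.R) * Nat.card ↥(D.diagonalSubgroup F ⊓ G1) =
      Nat.card (∀ a, (↥(Fm.S a))ˣ) := by
  rw [← Fm.card_R hc hη]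
  exact (Subgroup.card_eq_card_quotient_mul_card_subgroup _).symm

include Fm in
/-- The link between two orbits. -/
theorem link {a b : ι} (hab : Fm.S a ≤ Fm.S b)
    (hcart : ∀ d : ↥(Fm.S a), d ≠ 0 → ∀ j' ∈ Fm.J b,
      ((Fm.J a).map fun j => (Fm.e a j (d : F)) ^ D.cartan j (D.simple j')).prod = (Fm.e b j' (d : F))⁻¹)
    {θ : ↥G1 ≃* ↥G1} {c : (↥(Fm.S a))ˣ} {c' : (↥(Fm.S b))ˣ} {σ : ↥(Fm.S a) ≃+* ↥(Fm.S a)}
    {σ' : ↥(Fm.S b) ≃+* ↥(Fm.S b)}
    (h1 : ∀ t, θ ((Fm.orb a).xG t) = (Fm.orb a).xG ((c : ↥(Fm.S a)) * σ t) ∧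
      θ ((Fm.orb a).yG hc hη t) = (Fm.orb a).yG hc hη (((c⁻¹ : (↥(Fm.S a))ˣ) : ↥(Fm.S a)) * σ t))
    (h2 : ∀ t, θ ((Fm.orb b).xG t) = (Fm.orb b).xG ((c' : ↥(Fm.S b)) * σ' t) ∧
      θ ((Fm.orb b).yG hc hη t) = (Fm.orb b).yG hc hη (((c'⁻¹ : (↥(Fm.S b))ˣ) : ↥(Fm.S b)) * σ' t))
    (d : ↥(Fm.S a)) : ((σ' ⟨d, hab d.2⟩ : ↥(Fm.S b)) : F) = (σ d : ↥(Fm.S a)) := by
  have hι := link_of_triple ((Fm.orb a).relG hc hη) h1 h2
    (fun x y he => (Fm.orb b).inj_x x y (congrArg Subtype.val he)) (Subfield.inclusion hab)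
    (fun d hd u => by
      apply Subtype.ext
      show h (xL hR.toAddRel (Fm.J a) _) (yL hR.toAddRel (Fm.J a) _) d * xL hR.toAddRel (Fm.J b) _ u *
        (h (xL hR.toAddRel (Fm.J a) _) (yL hR.toAddRel (Fm.J a) _) d)⁻¹ = xL hR.toAddRel (Fm.J b) _ _
      rw [h_eq_torJ (Fm.orb a).hnd (Fm.orb a).hO _ hd, xL, xL]
      have hd' : (d : F) ≠ 0 := by simpa using hd
      rw [conj_scal hR hT (f := fun j' => ((Fm.J a).map fun j => (Fm.e a j (d : F)) ^ D.cartan j (D.simple j')).prod)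
        (fun j' hj' a' => by
          have := torJ_conj hR (J := Fm.J a) (Fm.orb a).hl (d := fun i => ((Fm.e a i).comp (Fm.S a).subtype) d)
            (fun i _ => by simpa using hd) (hT.simple_lt ((Fm.orb b).hl j' hj')) a'
          exact this)]
      refine xJ_congr fun j' hj' => ?_
      rw [hcart d hd j' hj']
      simp [Subfield.inclusion])
    d
  exact (congrArg Subtype.val hι : _)

end OFam

/-- Sylow subgroups from orders. -/
theorem exists_sylow_of {G : Type*} [Group G] [Finite G] {p : ℕ} [Fact p.Prime] (U : Subgroup G) {m r : ℕ}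
    (h1 : Nat.card U = p ^ m) (h2 : Nat.card G = p ^ m * r) (h3 : ¬ p ∣ r) :
    ∃ P : Sylow p G, (P : Subgroup G) = U := by
  have hp : p.Prime := Fact.out
  have hr : r ≠ 0 := fun h => h3 (h ▸ dvd_zero p)
  have hfac : (Nat.card G).factorization p = m := by
    rw [h2, Nat.factorization_mul (pow_ne_zero _ hp.ne_zero) hr, Nat.factorization_pow, hp.factorization]
    simp [Nat.factorization_eq_zero_of_not_dvd h3]
  exact ⟨Sylow.ofCard U (by rw [hfac, h1]), rfl⟩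

/-- The subgroup of a subgroup and the intersection. -/
theorem card_subgroupOf' {G : Type*} [Group G] (U H : Subgroup G) : Nat.card (U.subgroupOf H) = Nat.card ↥(U ⊓ H) := by
  refine Nat.card_congr (Equiv.mk (fun x => ⟨x.1.1, x.2, x.1.2⟩) (fun y => ⟨⟨y.1, y.2.2⟩, y.2.1⟩) ?_ ?_)
  · intro x
    rfl
  · intro y
    rfl

/-- The fixed subfield of a ring endomorphism. -/
def fixF {K : Type*} [Field K] (φ : K →+* K) : Subfield K where
  carrier := {t | φ t = t}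
  mul_mem' := by
    intro a b ha hb
    simp only [Set.mem_ofPred_eq, map_mul] at *
    rw [ha, hb]
  one_mem' := by simp
  add_mem' := by
    intro a b ha hb
    simp only [Set.mem_ofPred_eq, map_add] at *
    rw [ha, hb]
  zero_mem' := by simp
  neg_mem' := by
    intro a ha
    simp only [Set.mem_ofPred_eq, map_neg] at *
    rw [ha]
  inv_mem' := by
    intro a ha
    simp only [Set.mem_ofPred_eq, map_inv₀] at *
    rw [ha]

theorem mem_fixF {K : Type*} [Field K] {φ : K →+* K} {t : K} : t ∈ fixF φ ↔ φ t = t := Iff.rfl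

/-- Automorphisms commute with power maps. -/
theorem frob_comm {K : Type*} [Field K] {φ : K →+* K} {q : ℕ} (hφ : ∀ t, φ t = t ^ q) (σ : K ≃+* K) (t : K) :
    φ (σ t) = σ (φ t) := by
  rw [hφ, hφ, map_pow]

theorem frob_stable {K : Type*} [Field K] {φ : K →+* K} {q : ℕ} (hφ : ∀ t, φ t = t ^ q) (σ : K ≃+* K) {t : K}
    (ht : t ∈ fixF φ) : σ t ∈ fixF φ := by
  rw [mem_fixF] at ht ⊢
  rw [frob_comm hφ, ht]

namespace Inst

variable {hR : Sys D F η} {hT : Tbl D} {T : Tw hR.toAddRel} {Js cl : List (List ℕ)}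
  {G1 : Subgroup (GL D.Idx F)} (I : Inst hR hT T Js cl G1) [Finite F]

include I in
/-- A permutation of the root groups does not decrease their order. -/
theorem card_le_of_perm {θ : ↥G1 ≃* ↥G1} {J J' : List ℕ} (hJ : J ∈ Js)
    (h : ∀ g : ↥G1, (g : GL D.Idx F) ∈ gen hR.toAddRel (psiL D J) →
      ((θ g : ↥G1) : GL D.Idx F) ∈ gen hR.toAddRel (psiL D J')) :
    Nat.card ↥(gen hR.toAddRel (psiL D J) ⊓ T.Fx) ≤ Nat.card ↥(gen hR.toAddRel (psiL D J') ⊓ T.Fx) := by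
  have hG : ∀ x ∈ gen hR.toAddRel (psiL D J) ⊓ T.Fx, x ∈ G1 := fun x hx => I.fund J hJ hx
  let f : ↥(gen hR.toAddRel (psiL D J) ⊓ T.Fx) → ↥(gen hR.toAddRel (psiL D J') ⊓ T.Fx) := fun x =>
    ⟨(θ ⟨x.1, hG x.1 x.2⟩ : ↥G1), h _ x.2.1, I.fix (θ ⟨x.1, hG x.1 x.2⟩).2⟩
  refine Nat.card_le_card_of_injective f ?_
  intro a b he
  have h0 : ((θ ⟨a.1, hG a.1 a.2⟩ : ↥G1) : GL D.Idx F) = ((θ ⟨b.1, hG b.1 b.2⟩ : ↥G1) : GL D.Idx F) :=
    congrArg (fun z : ↥(gen hR.toAddRel (psiL D J') ⊓ T.Fx) => (z : GL D.Idx F)) he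
  have h1 : θ ⟨a.1, hG a.1 a.2⟩ = θ ⟨b.1, hG b.1 b.2⟩ := Subtype.ext h0
  have h2 := θ.injective h1
  exact Subtype.ext (congrArg (fun z : ↥G1 => (z : GL D.Idx F)) h2)

end Inst

end Cfsg.Agent.Lib.Twisted
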