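import Cfsg.Agent.Lib.Twisted.Simp
import Cfsg.Agent.Lib.ChevAut.Inner
import Cfsg.Agent.Lib.ChevAut.InnerH
import Cfsg.Agent.Lib.ChevOrder.BNCount

/-!
# Automorphisms of twisted groups: reduction to automorphisms preserving `U¹` and `V¹`
-/

set_option autoImplicit false
set_option linter.unusedSectionVars false

namespace Cfsg.Agent.Lib.Twisted

open Cfsg.Lie Cfsg.Agent.Lib.ChevBN.Elem Cfsg.Agent.Lib.ChevBN.Entries Cfsg.Agent.Lib.ChevBN.Table
open Cfsg.Agent.Lib.ChevBN.Collect Cfsg.Agent.Lib.ChevBN.Rel Cfsg.Agent.Lib.ChevBN.Torus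
open Cfsg.Agent.Lib.ChevBN.Monomial Cfsg.Agent.Lib.ChevBN.Core Cfsg.Agent.Lib.ChevBN.Pair
open Cfsg.Agent.Lib.ChevBN.Stmts Cfsg.Agent.Lib.ChevBN.Opp Cfsg.Agent.Lib.ChevBN.Perfect
open Cfsg.Agent.Lib.ChevOrder.Chev Cfsg.Agent.Lib.ChevOrder.BNCount
open Cfsg.Agent.Lib.BNPair.Basic Cfsg.Agent.Lib.BNPair.Parabolic

open scoped Pointwise

variable {D : ChevalleyDatum} {F : Type*} [Field F] {η : ℕ → ℕ → ℤ}

/-- The automorphism `y ↦ x⁻¹ θ(y) x`. -/
def conjByT {G : Type*} [Group G] (θ : G ≃* G) (x : G) : G ≃* G :=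
  θ.trans (MulAut.conj x⁻¹)

@[simp] theorem conjByT_apply {G : Type*} [Group G] (θ : G ≃* G) (x g : G) :
    conjByT θ x g = x⁻¹ * θ g * x := by
  simp [conjByT]

/-- The group of a twisted datum. -/
def PresUT {G1 : Subgroup (GL D.Idx F)} (θ : ↥G1 ≃* ↥G1) : Prop :=
  ∀ g : ↥G1, ((θ g : ↥G1) : GL D.Idx F) ∈ D.posUnipotent F ↔ (g : GL D.Idx F) ∈ D.posUnipotent F

/-- Preserving `V`. -/
def PresVT {G1 : Subgroup (GL D.Idx F)} (θ : ↥G1 ≃* ↥G1) : Prop :=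
  ∀ g : ↥G1, ((θ g : ↥G1) : GL D.Idx F) ∈ D.negUnipotent F ↔ (g : GL D.Idx F) ∈ D.negUnipotent F

/-- Up to an inner automorphism, `θ` preserves `U¹`: Sylow's theorem. -/
theorem exists_presUT {G1 : Subgroup (GL D.Idx F)} [Finite ↥G1] {p : ℕ} [Fact p.Prime]
    (hS : ∃ P : Sylow p ↥G1, (P : Subgroup ↥G1) = (D.posUnipotent F).subgroupOf G1)
    (θ : ↥G1 ≃* ↥G1) : ∃ x : ↥G1, PresUT (conjByT θ x) := by
  classical
  obtain ⟨P, hP⟩ := hS
  obtain ⟨x, hx⟩ := MulAction.exists_smul_eq (↥G1) P ((θ : MulAut ↥G1) • P)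
  refine ⟨x, fun g => ?_⟩
  have h1 : ((x • P : Sylow p ↥G1) : Subgroup ↥G1) =
      (((θ : MulAut ↥G1) • P : Sylow p ↥G1) : Subgroup ↥G1) := by rw [hx]
  have h2 : ((x • P : Sylow p ↥G1) : Subgroup ↥G1) =
      ((MulAut.conj x) • (P : Subgroup ↥G1) : Subgroup ↥G1) := by
    rw [Sylow.smul_def, Sylow.pointwise_smul_def]
  rw [h2, Sylow.pointwise_smul_def, hP] at h1
  have h3 : ((x⁻¹ * θ g * x : ↥G1) : GL D.Idx F) ∈ D.posUnipotent F ↔
      x⁻¹ * θ g * x ∈ (D.posUnipotent F).subgroupOf G1 := Subgroup.mem_subgroupOf.symm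
  rw [conjByT_apply, h3, ← Subgroup.mem_subgroupOf]
  have h4 : θ g ∈ (θ : MulAut ↥G1) • (D.posUnipotent F).subgroupOf G1 ↔
      g ∈ (D.posUnipotent F).subgroupOf G1 :=
    Subgroup.smul_mem_pointwise_smul_iff (a := (θ : MulAut ↥G1))
  rw [← h4, ← h1, Subgroup.mem_pointwise_smul_iff_inv_smul_mem, MulAut.smul_def, ← MulAut.conj_inv_apply]

namespace Inst

variable {hR : Sys D F η} {hT : Tbl D} {T : Tw hR.toAddRel} {Js cl : List (List ℕ)}
  {G1 : Subgroup (GL D.Idx F)} (I : Inst hR hT T Js cl G1) [Finite F]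

include I

/-- An element of `G¹ ∩ N` taking a positive root to a positive root moves some nontrivial element of `U¹`
into `U¹`: so a condition of trivial intersection makes all positive roots negative. -/
theorem all_neg_of_inter {m : GL D.Idx F} (hmN : m ∈ D.monomialSubgroup F) (hmG : m ∈ G1)
    (hm : ∀ g ∈ G1, g ∈ D.posUnipotent F → m * g * m⁻¹ ∈ D.posUnipotent F → g = 1)
    (r : Fin D.nroots) (hr : D.IsPosRoot r) : D.IsNegRoot (pn hR hT hmN r) := by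
  obtain ⟨S, hS, hrS⟩ := List.mem_flatten.1 ((I.flat r).1 hr)
  obtain ⟨w, hw, J₀, hJ₀, hmv⟩ := I.cert S hS
  have hnw := I.prodA_mem hw
  have hl := I.flat_lt hw
  have hnN := prodA_mem_N hR hT hl
  set n := prodA hR w.flatten with hne
  have hkN : m * n⁻¹ ∈ D.monomialSubgroup F := Subgroup.mul_mem _ hmN (Subgroup.inv_mem _ hnN)
  have hkG : m * n⁻¹ ∈ G1 := Subgroup.mul_mem _ hmG (Subgroup.inv_mem _ hnw)
  have hmv' := hmv
  simp only [moves, Bool.and_eq_true, List.all_eq_true, List.contains_iff_mem, List.mem_map] at hmv'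
  obtain ⟨i, hi, e⟩ := hmv'.1.1 r hrS
  have hp : (pn hR hT hnN r).val = D.simple i := by
    rw [pn_prodA hR hT hl, e]
  have hpk : pn hR hT hkN (pn hR hT hnN r) = pn hR hT hmN r := by
    have e1 := pn_mul hR hT hkN hnN
    have e2 : pn hR hT (Subgroup.mul_mem _ hkN hnN) = pn hR hT hmN := by
      congr 1
      group
    rw [e2] at e1
    rw [e1]
    rfl
  rcases I.fd.dich ⟨J₀, hJ₀⟩ _ hkN hkG with hpos | hneg
  · exfalso
    let x := xJ hR.toAddRel J₀ (fun _ => (1 : F))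
    have hx1 : x ≠ 1 := I.orth.nontriv_aux hR hT I.comm hJ₀
    have hxG : x ∈ G1 := (I.hw J₀ hJ₀).1
    have hxf : x ∈ gen hR.toAddRel (psiL D J₀) ⊓ T.Fx := ⟨xJ_mem _ _, I.fix hxG⟩
    have hy := I.conj2 (fun r hr => I.class_pos hS r hr) hl hnw hmv hJ₀ hxf
    have hyG : n⁻¹ * x * n ∈ G1 := by
      exact Subgroup.mul_mem _ (Subgroup.mul_mem _ (Subgroup.inv_mem _ hnw) hxG) hnw
    have hyU : n⁻¹ * x * n ∈ D.posUnipotent F := by
      rw [posUnipotent_eq hR.toAddRel]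
      refine gen_mono _ ?_ hy.1
      intro r hr
      exact (I.flat r).2 (List.mem_flatten.2 ⟨S, hS, hr⟩)
    have hmy : m * (n⁻¹ * x * n) * m⁻¹ ∈ D.posUnipotent F := by
      have e3 : m * (n⁻¹ * x * n) * m⁻¹ = (m * n⁻¹) * x * (m * n⁻¹)⁻¹ := by group
      rw [e3, posUnipotent_eq hR.toAddRel]
      refine conj_gen hR hT hkN (Ψ := psiL D J₀) (fun r hr => ?_) ?_ hxf.1
      · obtain ⟨j, hj, rfl⟩ := hr
        exact hT.simple_lt (I.orth.lt J₀ hJ₀ j hj)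
      · intro s hs
        exact hpos s hs
    have h1 := hm _ hyG hyU hmy
    apply hx1
    have e4 : x = n * (n⁻¹ * x * n) * n⁻¹ := by group
    rw [e4, h1]
    group
  · have h2 := hneg (pn hR hT hnN r) (by rw [hp]; exact mem_psiL hi)
    rw [hpk] at h2
    rcases hT.pos_or_neg (pn hR hT hmN r).isLt with h3 | h3
    · exact absurd h3 h2
    · exact h3

/-- An element of `N ∩ G¹` making all positive roots negative exchanges `U` and `V`. -/
theorem opp_of_all_neg {m : GL D.Idx F} (hmN : m ∈ D.monomialSubgroup F)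
    (hneg : ∀ r : Fin D.nroots, D.IsPosRoot r → D.IsNegRoot (pn hR hT hmN r)) :
    (∀ g : GL D.Idx F, m * g * m⁻¹ ∈ D.negUnipotent F ↔ g ∈ D.posUnipotent F) ∧
    (∀ g : GL D.Idx F, m * g * m⁻¹ ∈ D.posUnipotent F ↔ g ∈ D.negUnipotent F) :=
  Cfsg.Agent.Lib.ChevAut.Inner.moving_opp hR hT (pn_neg hR hT hmN) (pn_conj hR hT hmN) hneg

/-- Elements of `B ∩ G¹` are products. -/
theorem split_B {b : GL D.Idx F} (hb : b ∈ D.borelSubgroup F) (hbG : b ∈ G1) :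
    ∃ u ∈ D.posUnipotent F, u ∈ G1 ∧ ∃ h ∈ D.diagonalSubgroup F, h ∈ G1 ∧ b = u * h := by
  obtain ⟨u, hu, h, hh, rfl⟩ := (mem_B_iff hR hT).1 hb
  obtain ⟨h1, h2⟩ := T.fix_split (Tw.U_le_group hR.toAddRel) (H_le_G hR hT) (fun a ha => T.s_U ha)
    (fun a ha => s_H hR hT T ha) (U_inf_H hR hT) hu hh (I.fix hbG)
  have huG : u ∈ G1 := I.U_le ⟨hu, h1⟩
  refine ⟨u, hu, huG, h, hh, ?_, rfl⟩
  have e : h = u⁻¹ * (u * h) := by group
  rw [e]
  exact Subgroup.mul_mem _ (Subgroup.inv_mem _ huG) hbG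

section Pair

variable {P : Cfsg.BNPair ↥G1} (hB : P.B = (D.borelSubgroup F ⊓ G1).subgroupOf G1)
  (hN : P.N = (D.monomialSubgroup F ⊓ G1).subgroupOf G1)

include hB in
theorem memPB {b : ↥G1} : b ∈ P.B ↔ (b : GL D.Idx F) ∈ D.borelSubgroup F := by
  rw [hB, Subgroup.mem_subgroupOf]
  exact ⟨fun h => h.1, fun h => ⟨h, b.2⟩⟩

include hN in
theorem memPN {b : ↥G1} : b ∈ P.N ↔ (b : GL D.Idx F) ∈ D.monomialSubgroup F := by
  rw [hN, Subgroup.mem_subgroupOf]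
  exact ⟨fun h => h.1, fun h => ⟨h, b.2⟩⟩

include hB hN in
/-- `B¹` is the normaliser of `U¹` in `G¹`. -/
theorem mem_B_iff_norm (g : ↥G1) :
    (g : GL D.Idx F) ∈ D.borelSubgroup F ↔ ∀ u : ↥G1,
      ((g * u * g⁻¹ : ↥G1) : GL D.Idx F) ∈ D.posUnipotent F ↔ (u : GL D.Idx F) ∈ D.posUnipotent F := by
  constructor
  · intro hg u
    constructor
    · intro h1
      have h2 := Cfsg.Agent.Lib.ChevAut.B_norm_U hR hT (Subgroup.inv_mem _ hg) h1
      have e : (g : GL D.Idx F)⁻¹ * ((g * u * g⁻¹ : ↥G1) : GL D.Idx F) * ((g : GL D.Idx F)⁻¹)⁻¹ = u := by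
        show (g : GL D.Idx F)⁻¹ * ((g : GL D.Idx F) * u * (g : GL D.Idx F)⁻¹) * ((g : GL D.Idx F)⁻¹)⁻¹ = u
        group
      rwa [e] at h2
    · intro h1
      exact Cfsg.Agent.Lib.ChevAut.B_norm_U hR hT hg h1
  · intro h
    obtain ⟨m, hm, hk⟩ := bruhat_exists (P := P) g
    obtain ⟨b₁, hb₁, b₂, hb₂, e⟩ := mem_C.1 hk
    have hb₁' := (memPB I hB).1 hb₁
    have hb₂' := (memPB I hB).1 hb₂
    have hmN := (memPN I hN).1 hm
    by_cases hmH : (m : GL D.Idx F) ∈ D.diagonalSubgroup F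
    · rw [e]
      exact Subgroup.mul_mem _ (Subgroup.mul_mem _ hb₁' (H_le_B hR hT hmH)) hb₂'
    exfalso
    have hmU : ∀ u : ↥G1, (u : GL D.Idx F) ∈ D.posUnipotent F →
        (m : GL D.Idx F) * u * (m : GL D.Idx F)⁻¹ ∈ D.posUnipotent F := by
      intro u hu
      have h1 := Cfsg.Agent.Lib.ChevAut.B_norm_U hR hT (Subgroup.inv_mem _ hb₂') hu
      let v : ↥G1 := b₂⁻¹ * u * b₂
      have h1' : (v : GL D.Idx F) ∈ D.posUnipotent F := by
        have e0 : (v : GL D.Idx F) = (b₂ : GL D.Idx F)⁻¹ * u * ((b₂ : GL D.Idx F)⁻¹)⁻¹ := by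
          show (b₂ : GL D.Idx F)⁻¹ * u * (b₂ : GL D.Idx F) = _
          group
        rw [e0]
        exact h1
      have h2 := (h v).2 h1'
      have h3 := Cfsg.Agent.Lib.ChevAut.B_norm_U hR hT (Subgroup.inv_mem _ hb₁') h2
      have e2 : (b₁ : GL D.Idx F)⁻¹ * ((g * v * g⁻¹ : ↥G1) : GL D.Idx F) * ((b₁ : GL D.Idx F)⁻¹)⁻¹ =
          (m : GL D.Idx F) * u * (m : GL D.Idx F)⁻¹ := by
        have e3 : ((g * v * g⁻¹ : ↥G1) : GL D.Idx F) = (g : GL D.Idx F) * ((b₂ : GL D.Idx F)⁻¹ * u * (b₂ : GL D.Idx F)) * (g : GL D.Idx F)⁻¹ := rfl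
        have e4 : (g : GL D.Idx F) = (b₁ : GL D.Idx F) * m * b₂ := by
          rw [e]
          rfl
        rw [e3, e4]
        group
      rwa [e2] at h3
    obtain ⟨i, hi⟩ := exists_simple_neg hR hT hmN hmH
    obtain ⟨J, hJ, hiJ⟩ := I.orth.cover i i.2
    rcases I.fd.dich ⟨J, hJ⟩ _ hmN m.2 with hpos | hneg
    · exact hi (hpos _ (mem_psiL hiJ))
    · have hxG := (I.hw J hJ).1
      have hx1 : xJ hR.toAddRel J (fun _ => (1 : F)) ≠ 1 := I.orth.nontriv_aux hR hT I.comm hJ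
      have hxU : xJ hR.toAddRel J (fun _ => (1 : F)) ∈ D.posUnipotent F := by
        rw [posUnipotent_eq hR.toAddRel]
        refine gen_mono _ ?_ (xJ_mem J _)
        rintro r ⟨k, hk, rfl⟩
        exact hT.simple_pos k (I.orth.lt J hJ k hk)
      have h1 := hmU ⟨_, hxG⟩ hxU
      have h2 : (m : GL D.Idx F) * xJ hR.toAddRel J (fun _ => (1 : F)) * (m : GL D.Idx F)⁻¹ ∈ D.negUnipotent F := by
        rw [negUnipotent_eq hR.toAddRel]
        refine conj_gen hR hT hmN (Ψ := psiL D J) (fun r hr => ?_) ?_ (xJ_mem J _)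
        · obtain ⟨j, hj, rfl⟩ := hr
          exact hT.simple_lt (I.orth.lt J hJ j hj)
        · intro s hs
          rcases hT.pos_or_neg (pn hR hT hmN s).isLt with h3 | h3
          · exact absurd h3 (hneg s hs)
          · exact h3
      have h3 := Cfsg.Agent.Lib.ChevAut.Inner.U_inf_V hR hT h1 h2
      apply hx1
      have e3 : xJ hR.toAddRel J (fun _ => (1 : F)) = (m : GL D.Idx F)⁻¹ *
          ((m : GL D.Idx F) * xJ hR.toAddRel J (fun _ => (1 : F)) * (m : GL D.Idx F)⁻¹) * m := by group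
      rw [e3, h3]
      group

include hB hN in
/-- An automorphism preserving `U¹` preserves `B¹`. -/
theorem presB {θ : ↥G1 ≃* ↥G1} (hθ : PresUT θ) (g : ↥G1) :
    ((θ g : ↥G1) : GL D.Idx F) ∈ D.borelSubgroup F ↔ (g : GL D.Idx F) ∈ D.borelSubgroup F := by
  rw [I.mem_B_iff_norm hB hN, I.mem_B_iff_norm hB hN]
  constructor
  · intro h u
    have := h (θ u)
    rw [hθ u, ← map_inv, ← map_mul, ← map_mul, hθ] at this
    exact this
  · intro h u
    obtain ⟨v, rfl⟩ := θ.surjective u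
    rw [hθ v, ← map_inv, ← map_mul, ← map_mul, hθ]
    exact h v

include hB hN in
/-- Up to conjugation by an element of `U¹`, an automorphism preserving `U¹` also preserves `V¹`. -/
theorem exists_presV (hw0 : ∃ w : List (List ℕ), (∀ J ∈ w, J ∈ Js) ∧
      ∀ r, D.IsPosRoot r → D.IsNegRoot (w.flatten.foldr D.reflectRoot r))
    {θ : ↥G1 ≃* ↥G1} (hθ : PresUT θ) :
    ∃ x : ↥G1, PresUT (conjByT θ x) ∧ PresVT (conjByT θ x) := by
  obtain ⟨w0, hw, hneg⟩ := hw0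
  have hnG := I.prodA_mem hw
  have hl := I.flat_lt hw
  have hnN := prodA_mem_N hR hT hl
  set n := prodA hR w0.flatten with hne
  have hnn := I.opp_of_all_neg hnN (fun r hr => by
    rw [pn_prodA hR hT hl]
    exact hneg _ hr)
  let nG : ↥G1 := ⟨n, hnG⟩
  obtain ⟨m, hm, hk⟩ := bruhat_exists (P := P) (θ nG)
  obtain ⟨b₁, hb₁, b₂, hb₂, e⟩ := mem_C.1 hk
  obtain ⟨u, hu, huG, h, hh, hhG, e₁⟩ := I.split_B ((memPB I hB).1 hb₁) b₁.2
  let uG : ↥G1 := ⟨u, huG⟩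
  let hG' : ↥G1 := ⟨h, hhG⟩
  have e₂ : b₁ = uG * hG' := Subtype.ext e₁
  set θ₂ := conjByT θ uG with hθ₂
  have hU2 : PresUT θ₂ := by
    intro g
    rw [hθ₂, conjByT_apply, ← hθ g]
    constructor
    · intro h1
      have := Subgroup.mul_mem _ (Subgroup.mul_mem _ hu h1) (Subgroup.inv_mem _ hu)
      simpa [uG, mul_assoc] using this
    · intro h1
      exact Subgroup.mul_mem _ (Subgroup.mul_mem _ (Subgroup.inv_mem _ hu) h1) hu
  set m' : ↥G1 := hG' * m with hm'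
  have hm'N : (m' : GL D.Idx F) ∈ D.monomialSubgroup F :=
    Subgroup.mul_mem _ (H_le_N hR hh) ((memPN I hN).1 hm)
  have key : ∀ g : ↥G1, (g : GL D.Idx F) ∈ D.negUnipotent F ↔
      ((m'⁻¹ * θ₂ g * m' : ↥G1) : GL D.Idx F) ∈ D.posUnipotent F := by
    intro g
    have h1 : (g : GL D.Idx F) ∈ D.negUnipotent F ↔
        ((nG⁻¹ * g * nG : ↥G1) : GL D.Idx F) ∈ D.posUnipotent F := by
      have := hnn.1 (((nG⁻¹ * g * nG : ↥G1) : GL D.Idx F))
      rw [← this]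
      have e3 : n * ((nG⁻¹ * g * nG : ↥G1) : GL D.Idx F) * n⁻¹ = (g : GL D.Idx F) := by
        show n * (n⁻¹ * (g : GL D.Idx F) * n) * n⁻¹ = _
        group
      rw [e3]
    rw [h1, ← hθ]
    have h2 := (I.mem_B_iff_norm hB hN b₂).1 ((memPB I hB).1 hb₂) (θ (nG⁻¹ * g * nG))
    rw [← h2]
    have e4 : b₂ * θ (nG⁻¹ * g * nG) * b₂⁻¹ = m'⁻¹ * θ₂ g * m' := by
      rw [hθ₂, conjByT_apply, map_mul, map_mul, map_inv, e, e₂, hm']
      group
    rw [e4]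
  have hinter : ∀ g ∈ G1, g ∈ D.posUnipotent F → (m' : GL D.Idx F) * g * (m' : GL D.Idx F)⁻¹ ∈ D.posUnipotent F →
      g = 1 := by
    intro g hgG hgU hmg
    let g₁ : ↥G1 := ⟨g, hgG⟩
    let x : ↥G1 := m' * g₁ * m'⁻¹
    have hxU : (x : GL D.Idx F) ∈ D.posUnipotent F := hmg
    set z := θ₂.symm x with hz
    have hz2 : θ₂ z = x := by simp [hz]
    have hzU : (z : GL D.Idx F) ∈ D.posUnipotent F := by
      rw [← hU2 z, hz2]
      exact hxU
    have hzV : (z : GL D.Idx F) ∈ D.negUnipotent F := by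
      rw [key z, hz2]
      have e5 : ((m'⁻¹ * x * m' : ↥G1) : GL D.Idx F) = g := by
        show (m' : GL D.Idx F)⁻¹ * ((m' : GL D.Idx F) * g * (m' : GL D.Idx F)⁻¹) * (m' : GL D.Idx F) = g
        group
      rw [e5]
      exact hgU
    have hz1 : z = 1 := Subtype.ext (Cfsg.Agent.Lib.ChevAut.Inner.U_inf_V hR hT hzU hzV)
    rw [hz1, map_one] at hz2
    have e6 : (m' : GL D.Idx F) * g * (m' : GL D.Idx F)⁻¹ = 1 := by
      have := congrArg Subtype.val hz2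
      exact this.symm
    have e7 : g = (m' : GL D.Idx F)⁻¹ * ((m' : GL D.Idx F) * g * (m' : GL D.Idx F)⁻¹) * m' := by group
    rw [e7, e6]
    group
  have hall := I.all_neg_of_inter hm'N m'.2 hinter
  have hm2 := I.opp_of_all_neg hm'N hall
  refine ⟨uG, hU2, fun g => ?_⟩
  rw [key g]
  have e6 := hm2.1 (((m'⁻¹ * θ₂ g * m' : ↥G1) : GL D.Idx F))
  rw [← e6]
  have e7 : (m' : GL D.Idx F) * ((m'⁻¹ * θ₂ g * m' : ↥G1) : GL D.Idx F) * (m' : GL D.Idx F)⁻¹ =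
      ((θ₂ g : ↥G1) : GL D.Idx F) := by
    show (m' : GL D.Idx F) * ((m' : GL D.Idx F)⁻¹ * ((θ₂ g : ↥G1) : GL D.Idx F) * (m' : GL D.Idx F)) * (m' : GL D.Idx F)⁻¹ = _
    group
  rw [e7]

end Pair

end Inst

end Cfsg.Agent.Lib.Twisted
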