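import Cfsg.Agent.Lib.Twisted.AutRank

/-!
# Automorphisms of twisted groups: inner automorphisms preserving the fundamental root groups
-/

set_option autoImplicit false
set_option linter.unusedSectionVars false

namespace Cfsg.Agent.Lib.Twisted

open Cfsg.Agent.Lib.Chevalley.SL2Hom (w h Rel)
open Cfsg.Agent.Lib.Chevalley
open Cfsg.Lie Cfsg.Agent.Lib.ChevBN.Elem Cfsg.Agent.Lib.ChevBN.Entries Cfsg.Agent.Lib.ChevBN.Table
open Cfsg.Agent.Lib.ChevBN.Collect Cfsg.Agent.Lib.ChevBN.Rel Cfsg.Agent.Lib.ChevBN.Torus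
open Cfsg.Agent.Lib.ChevBN.Monomial Cfsg.Agent.Lib.ChevBN.Core Cfsg.Agent.Lib.ChevBN.Pair
open Cfsg.Agent.Lib.ChevBN.Stmts Cfsg.Agent.Lib.ChevBN.Opp Cfsg.Agent.Lib.ChevBN.Perfect
open Cfsg.Agent.Lib.ChevOrder.Chev Cfsg.Agent.Lib.ChevOrder.BNCount
open Cfsg.Agent.Lib.BNPair.Basic Cfsg.Agent.Lib.BNPair.Parabolic

universe u

variable {D : ChevalleyDatum} {F : Type u} [Field F] {η : ℕ → ℕ → ℤ}

namespace Inst

variable {hR : Sys D F η} {hT : Tbl D} {T : Tw hR.toAddRel} {Js cl : List (List ℕ)}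
  {G1 : Subgroup (GL D.Idx F)} (I : Inst hR hT T Js cl G1) [Finite F]

include I

/-- `U` normalises the radical. -/
theorem U_norm_Cp (j : {J : List ℕ // J ∈ Js}) {u a : GL D.Idx F} (hu : u ∈ D.posUnipotent F)
    (ha : a ∈ gen hR.toAddRel (I.fd.Cp j)) : u * a * u⁻¹ ∈ gen hR.toAddRel (I.fd.Cp j) := by
  have hdis : ∀ a ∈ I.fd.Ψ j, a ∉ I.fd.Cp j := fun a ha h2 => h2.2 ha
  rw [← I.fd.union_eq j] at hu
  obtain ⟨b, hb, c, hc, rfl⟩ := gen_union_factor hR hT (I.fd.Ψ_closed j) (I.fd.Cp_closed j) hdis (I.fd.Cp_norm j) hu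
  have h1 : c * a * c⁻¹ ∈ gen hR.toAddRel (I.fd.Cp j) :=
    Subgroup.mul_mem _ (Subgroup.mul_mem _ hc ha) (Subgroup.inv_mem _ hc)
  have h2 := gen_le_norm hR hT (I.fd.Ψ_closed j) (I.fd.Cp_closed j) hdis (I.fd.Cp_norm j) hb
  have e : b * c * a * (b * c)⁻¹ = b * (c * a * c⁻¹) * b⁻¹ := by group
  rw [e]
  exact (Subgroup.mem_normalizer_iff.mp h2 _).mp h1

/-- `B` normalises the radical. -/
theorem B_norm_Cp (j : {J : List ℕ // J ∈ Js}) {b a : GL D.Idx F} (hb : b ∈ D.borelSubgroup F)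
    (ha : a ∈ gen hR.toAddRel (I.fd.Cp j)) : b * a * b⁻¹ ∈ gen hR.toAddRel (I.fd.Cp j) := by
  obtain ⟨u, hu, h, hh, rfl⟩ := (mem_B_iff hR hT).mp hb
  have e : u * h * a * (u * h)⁻¹ = u * (h * a * h⁻¹) * u⁻¹ := by group
  rw [e]
  exact I.U_norm_Cp j hu (H_conj_gen hR hT hh (fun r hr => hr.1.1) ha)

/-- An element of `U` outside the radical is not conjugated into `B` by `n_J`. -/
theorem conj_not_mem_B (j : {J : List ℕ // J ∈ Js}) {u : GL D.Idx F} (hu : u ∈ D.posUnipotent F)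
    (hY : u ∉ gen hR.toAddRel (I.fd.Cp j)) : I.fd.n j * u * (I.fd.n j)⁻¹ ∉ D.borelSubgroup F := by
  have hdis : ∀ a ∈ I.fd.Ψ j, a ∉ I.fd.Cp j := fun a ha h2 => h2.2 ha
  rw [← I.fd.union_eq j] at hu
  obtain ⟨b, hb, c, hc, rfl⟩ := gen_union_factor hR hT (I.fd.Ψ_closed j) (I.fd.Cp_closed j) hdis (I.fd.Cp_norm j) hu
  intro hmem
  have hcU : I.fd.n j * c * (I.fd.n j)⁻¹ ∈ D.posUnipotent F := by
    rw [posUnipotent_eq hR.toAddRel]
    refine conj_gen hR hT (I.fd.n_N j) (Ψ := I.fd.Cp j) (fun r hr => hr.1.1) ?_ hc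
    intro r hr
    exact (I.fd.act_comp j r hr.1 hr.2).1
  have e : I.fd.n j * (b * c) * (I.fd.n j)⁻¹ = (I.fd.n j * b * (I.fd.n j)⁻¹) * (I.fd.n j * c * (I.fd.n j)⁻¹) := by
    group
  rw [e] at hmem
  have h2 : I.fd.n j * b * (I.fd.n j)⁻¹ ∈ D.borelSubgroup F := by
    have := Subgroup.mul_mem _ hmem (Subgroup.inv_mem _ (U_le_B hR hT hcU))
    rwa [mul_inv_cancel_right] at this
  have h3 : I.fd.n j * b * (I.fd.n j)⁻¹ ∈ D.borelSubgroup F ⊓ D.negUnipotent F := ⟨h2, I.fd.conj_Ψ_V j hb⟩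
  rw [B_inf_V hR hT, Subgroup.mem_bot] at h3
  have h4 : b = 1 := by
    have e2 : b = (I.fd.n j)⁻¹ * (I.fd.n j * b * (I.fd.n j)⁻¹) * I.fd.n j := by group
    rw [e2, h3]
    group
  apply hY
  rw [h4, one_mul]
  exact hc

/-- The element `x_J(1)` is not in the radical. -/
theorem x_not_mem_Cp (j : {J : List ℕ // J ∈ Js}) :
    xJ hR.toAddRel j.1 (fun _ => (1 : F)) ∉ gen hR.toAddRel (I.fd.Cp j) := by
  intro h1
  have hdis : ∀ a ∈ I.fd.Ψ j, a ∉ I.fd.Cp j := fun a ha h2 => h2.2 ha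
  have hbot := gen_inf_eq_bot hR hT (I.fd.Ψ_closed j) (I.fd.Cp_closed j) (I.fd.union_closed j) hdis
    (I.fd.Cp_norm j)
  have h2 : xJ hR.toAddRel j.1 (fun _ => (1 : F)) ∈ gen hR.toAddRel (I.fd.Ψ j) ⊓ gen hR.toAddRel (I.fd.Cp j) :=
    ⟨xJ_mem _ _, h1⟩
  rw [hbot, Subgroup.mem_bot] at h2
  exact I.orth.nontriv_aux hR hT I.comm j.2 h2

theorem x_mem_U (j : {J : List ℕ // J ∈ Js}) : xJ hR.toAddRel j.1 (fun _ => (1 : F)) ∈ D.posUnipotent F := by
  rw [posUnipotent_eq hR.toAddRel]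
  refine gen_mono _ ?_ (xJ_mem j.1 _)
  rintro r ⟨k, hk, rfl⟩
  exact hT.simple_pos k (I.orth.lt j.1 j.2 k hk)

variable {P : Cfsg.BNPair ↥G1} (hB : P.B = (D.borelSubgroup F ⊓ G1).subgroupOf G1)
  (hN : P.N = (D.monomialSubgroup F ⊓ G1).subgroupOf G1)
  (hS : P.S = {g : ↥G1 | (g : GL D.Idx F) ∈ Set.range I.fd.n})

include hB hN hS in
/-- There is only one Borel subgroup containing the fundamental root groups. -/
theorem mem_B_of_conj {y : ↥G1}
    (hy : ∀ j : {J : List ℕ // J ∈ Js}, (y : GL D.Idx F)⁻¹ * xJ hR.toAddRel j.1 (fun _ => (1 : F)) * y ∈ D.borelSubgroup F) :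
    (y : GL D.Idx F) ∈ D.borelSubgroup F := by
  obtain ⟨n, hn, hm⟩ := bruhat_exists (P := P) y
  obtain ⟨b₁, hb₁, b₂, hb₂, e⟩ := mem_C.mp hm
  have hlt : ∀ s ∈ P.S, len P n < len P (s * n) := by
    intro s hs
    obtain ⟨j, rfl⟩ := I.exists_sJ hS hs
    have hb₁' := (memPB I hB).1 hb₁
    have hb₂' := (memPB I hB).1 hb₂
    have hX := I.x_mem_U j
    have hXG : xJ hR.toAddRel j.1 (fun _ => (1 : F)) ∈ G1 := (I.hw j.1 j.2).1
    let x₀ : ↥G1 := ⟨_, hXG⟩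
    let x : ↥G1 := b₁⁻¹ * x₀ * b₁
    have hxU : (x : GL D.Idx F) ∈ D.posUnipotent F := by
      have := Cfsg.Agent.Lib.ChevAut.B_norm_U hR hT (Subgroup.inv_mem _ hb₁') hX
      simpa [x, x₀] using this
    have hxB : x ∈ P.B := (memPB I hB).2 (U_le_B hR hT hxU)
    have hY : (x : GL D.Idx F) ∉ gen hR.toAddRel (I.fd.Cp j) := by
      intro hxY
      have h1 := I.B_norm_Cp j hb₁' hxY
      have h2 : (b₁ : GL D.Idx F) * (x : GL D.Idx F) * (b₁ : GL D.Idx F)⁻¹ = xJ hR.toAddRel j.1 (fun _ => (1 : F)) := by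
        simp only [x, x₀, Subgroup.coe_mul, Subgroup.coe_inv]
        group
      rw [h2] at h1
      exact I.x_not_mem_Cp j h1
    have hsx : I.sJ j * x * (I.sJ j)⁻¹ ∉ P.B := by
      intro hmem
      exact I.conj_not_mem_B j hxU hY ((memPB I hB).1 hmem)
    have hnx : n⁻¹ * x * n ∈ P.B := by
      have h1 := hy j
      have e2 : n⁻¹ * x * n = b₂ * (y⁻¹ * x₀ * y) * b₂⁻¹ := by
        rw [e]
        simp only [x]
        group
      rw [e2]
      exact P.B.mul_mem (P.B.mul_mem hb₂ ((memPB I hB).2 h1)) (P.B.inv_mem hb₂)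
    exact len_lt_of_conj (I.sJ_mem hS j) hn hxB hsx hnx
  have h0 : len P n = 0 := by
    by_contra hne
    obtain ⟨k, hk⟩ := Nat.exists_eq_succ_of_ne_zero hne
    obtain ⟨s, hs, n', hn', e', hl⟩ := decomp_left (P := P) hn hk
    have h1 := hlt s hs
    have h2 := len_inv_mul (P := P) hs hn
    have h3 : s⁻¹ * n = n' := by rw [e']; group
    rw [h3, hl] at h2
    omega
  have hnB := (len_eq_zero_iff hn).1 h0
  have : y ∈ P.B := by
    rw [e]
    exact P.B.mul_mem (P.B.mul_mem hb₁ hnB) hb₂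
  exact (memPB I hB).1 this

include hB hN hS in
/-- An element of `U¹` whose conjugates of all `n_J⁻¹` stay in `N` is trivial. -/
theorem U_trivial_of_conj {w₀ : List (List ℕ)} (hw₀ : StarW D Js w₀) {u : ↥G1}
    (hu : (u : GL D.Idx F) ∈ D.posUnipotent F)
    (hNc : ∀ j : {J : List ℕ // J ∈ Js}, (u : GL D.Idx F) * (prodA hR j.1)⁻¹ * (u : GL D.Idx F)⁻¹ ∈ D.monomialSubgroup F) :
    u = 1 := by
  have hcomm : ∀ j : {J : List ℕ // J ∈ Js}, prodA hR j.1 * (u : GL D.Idx F) * (prodA hR j.1)⁻¹ = u := by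
    intro j
    have huB : u ∈ P.B := (memPB I hB).2 (U_le_B hR hT hu)
    have hsN : (I.sJ j)⁻¹ ∈ P.N := P.N.inv_mem (S_mem_N (I.sJ_mem hS j))
    let n : ↥G1 := u * (I.sJ j)⁻¹ * u⁻¹
    have hnN : n ∈ P.N := (memPN I hN).2 (hNc j)
    have hnC : n ∈ C P (I.sJ j)⁻¹ := mem_C.2 ⟨u, huB, u⁻¹, P.B.inv_mem huB, rfl⟩
    have hCe := C_eq_of_mem hnC
    have h1 := (C_eq_iff hsN hnN).1 hCe.symm
    have h2 : (((I.sJ j)⁻¹)⁻¹ * n : ↥G1) * u ∈ P.B := P.B.mul_mem h1 huB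
    have h3 : prodA hR j.1 * (u : GL D.Idx F) * (prodA hR j.1)⁻¹ ∈ D.borelSubgroup F := by
      have := (memPB I hB).1 h2
      have e : ((((I.sJ j)⁻¹)⁻¹ * n * u : ↥G1) : GL D.Idx F) = prodA hR j.1 * (u : GL D.Idx F) * (prodA hR j.1)⁻¹ := by
        show ((prodA hR j.1)⁻¹)⁻¹ * ((u : GL D.Idx F) * (prodA hR j.1)⁻¹ * (u : GL D.Idx F)⁻¹) * (u : GL D.Idx F) = _
        group
      rwa [e] at this
    have hY : (u : GL D.Idx F) ∈ gen hR.toAddRel (I.fd.Cp j) := by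
      by_contra hY
      exact I.conj_not_mem_B j hu hY h3
    have hvU : prodA hR j.1 * (u : GL D.Idx F) * (prodA hR j.1)⁻¹ ∈ D.posUnipotent F := by
      rw [posUnipotent_eq hR.toAddRel]
      refine conj_gen hR hT (I.fd.n_N j) (Ψ := I.fd.Cp j) (fun r hr => hr.1.1) ?_ hY
      intro r hr
      exact (I.fd.act_comp j r hr.1 hr.2).1
    have h4 : prodA hR j.1 * (u : GL D.Idx F) * (prodA hR j.1)⁻¹ * (u : GL D.Idx F)⁻¹ ∈
        D.posUnipotent F ⊓ D.monomialSubgroup F := by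
      refine ⟨Subgroup.mul_mem _ hvU (Subgroup.inv_mem _ hu), ?_⟩
      have e : prodA hR j.1 * (u : GL D.Idx F) * (prodA hR j.1)⁻¹ * (u : GL D.Idx F)⁻¹ =
          prodA hR j.1 * ((u : GL D.Idx F) * (prodA hR j.1)⁻¹ * (u : GL D.Idx F)⁻¹) := by group
      rw [e]
      exact Subgroup.mul_mem _ (I.fd.n_N j) (hNc j)
    rw [U_inf_N hR hT, Subgroup.mem_bot] at h4
    exact mul_inv_eq_one.mp h4
  have hprod : ∀ w : List (List ℕ), (∀ J ∈ w, J ∈ Js) →
      prodA hR w.flatten * (u : GL D.Idx F) * (prodA hR w.flatten)⁻¹ = u := by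
    intro w
    induction w with
    | nil =>
      intro _
      simp [prodA]
    | cons J w ih =>
      intro hw
      have e : prodA hR (J :: w).flatten = prodA hR J * prodA hR w.flatten := by
        simp [prodA]
      have h1 := ih (fun K hK => hw K (by simp [hK]))
      have h2 := hcomm ⟨J, hw J (by simp)⟩
      rw [e]
      calc _ = prodA hR J * (prodA hR w.flatten * (u : GL D.Idx F) * (prodA hR w.flatten)⁻¹) * (prodA hR J)⁻¹ := by group
        _ = _ := by rw [h1]; exact h2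
  have hV : (u : GL D.Idx F) ∈ D.negUnipotent F := by
    rw [← hprod w₀ hw₀.mem]
    exact ((I.n0_opp hw₀).1 _).2 hu
  exact Subtype.ext (Cfsg.Agent.Lib.ChevAut.Inner.U_inf_V hR hT hu hV)

include hB hN hS in
/-- An element of `G¹` normalising the fundamental root groups and their opposites lies in `H`. -/
theorem mem_H_of_conj (hc : ∀ i < D.rank, D.cartan i (D.simple i) = 2) (hη : ∀ i < D.rank, η i (D.simple i) = -1)
    {w₀ : List (List ℕ)} (hw₀ : StarW D Js w₀)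
    (hOrb : ∀ J ∈ Js, ∃ (L : Type u) (_ : Field L) (_ : Finite L) (ε : ℕ → L →+* F), OrbD I J ε)
    {x : ↥G1}
    (hp : ∀ (j : {J : List ℕ // J ∈ Js}) (g : ↥G1), (g : GL D.Idx F) ∈ gen hR.toAddRel (psiL D j.1) →
      ((x * g * x⁻¹ : ↥G1) : GL D.Idx F) ∈ gen hR.toAddRel (psiL D j.1))
    (hn : ∀ (j : {J : List ℕ // J ∈ Js}) (g : ↥G1), (g : GL D.Idx F) ∈ gen hR.toAddRel (psiN D j.1) →
      ((x * g * x⁻¹ : ↥G1) : GL D.Idx F) ∈ gen hR.toAddRel (psiN D j.1)) :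
    (x : GL D.Idx F) ∈ D.diagonalSubgroup F := by
  have hxB : (x : GL D.Idx F) ∈ D.borelSubgroup F := by
    have h1 : ((x⁻¹ : ↥G1) : GL D.Idx F) ∈ D.borelSubgroup F := by
      apply I.mem_B_of_conj hB hN hS
      intro j
      have h2 := hp j ⟨_, (I.hw j.1 j.2).1⟩ (xJ_mem _ _)
      have h3 : ((x⁻¹ : ↥G1) : GL D.Idx F)⁻¹ * xJ hR.toAddRel j.1 (fun _ => (1 : F)) * ((x⁻¹ : ↥G1) : GL D.Idx F) ∈
          gen hR.toAddRel (psiL D j.1) := by
        simpa using h2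
      apply U_le_B hR hT
      rw [posUnipotent_eq hR.toAddRel]
      refine gen_mono _ ?_ h3
      rintro r ⟨k, hk, rfl⟩
      exact hT.simple_pos k (I.orth.lt j.1 j.2 k hk)
    simpa using Subgroup.inv_mem _ h1
  obtain ⟨u, hu, huG, h', hh, hhG, e⟩ := I.split_B hxB x.2
  let ū : ↥G1 := ⟨u, huG⟩
  have hu1 : ū = 1 := by
    apply I.U_trivial_of_conj hB hN hS hw₀ hu
    intro j
    obtain ⟨L, _, _, ε, O⟩ := hOrb j.1 j.2
    -- conjugation by `u`
    have hconj : ∀ g : ↥G1, ((MulAut.conj ū g : ↥G1) : GL D.Idx F) =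
        ((x * (⟨h', hhG⟩ : ↥G1)⁻¹ * g * (⟨h', hhG⟩ : ↥G1) * x⁻¹ : ↥G1) : GL D.Idx F) := by
      intro g
      rw [MulAut.conj_apply]
      show u * (g : GL D.Idx F) * u⁻¹ = (x : GL D.Idx F) * h'⁻¹ * g * h' * (x : GL D.Idx F)⁻¹
      rw [e]
      group
    have hP : ∀ t : L, ∃ v, MulAut.conj ū (O.xG t) = O.xG v := by
      intro t
      have h1 : (((⟨h', hhG⟩ : ↥G1)⁻¹ * O.xG t * (⟨h', hhG⟩ : ↥G1) : ↥G1) : GL D.Idx F) ∈
          gen hR.toAddRel (psiL D j.1) := by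
        have := H_conj_gen hR hT (Subgroup.inv_mem _ hh) (Ψ := psiL D j.1) (g := xL hR.toAddRel j.1 ε t)
          (fun r hr => by
            obtain ⟨i, hi, rfl⟩ := hr
            exact hT.simple_lt (I.orth.lt j.1 j.2 i hi)) (xJ_mem _ _)
        simpa using this
      have h2 := hp j _ h1
      have h3 : ((MulAut.conj ū (O.xG t) : ↥G1) : GL D.Idx F) ∈ gen hR.toAddRel (psiL D j.1) := by
        rw [hconj]
        simpa [mul_assoc] using h2
      obtain ⟨v, hv⟩ := O.surj_x _ (MulAut.conj ū (O.xG t)).2 h3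
      exact ⟨v, Subtype.ext hv⟩
    have hQ : ∀ t : L, ∃ v, MulAut.conj ū (O.yG hc hη t) = O.yG hc hη v := by
      intro t
      have h1 : (((⟨h', hhG⟩ : ↥G1)⁻¹ * O.yG hc hη t * (⟨h', hhG⟩ : ↥G1) : ↥G1) : GL D.Idx F) ∈
          gen hR.toAddRel (psiN D j.1) := by
        have := H_conj_gen hR hT (Subgroup.inv_mem _ hh) (Ψ := psiN D j.1) (g := yL hR.toAddRel j.1 ε t)
          (fun r hr => by
            obtain ⟨i, hi, rfl⟩ := hr
            exact hT.neg_lt (hT.simple_lt (I.orth.lt j.1 j.2 i hi))) (yJ_mem _ _)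
        simpa using this
      have h2 := hn j _ h1
      have h3 : ((MulAut.conj ū (O.yG hc hη t) : ↥G1) : GL D.Idx F) ∈ gen hR.toAddRel (psiN D j.1) := by
        rw [hconj]
        simpa [mul_assoc] using h2
      obtain ⟨v, hv⟩ := O.surj_y hc hη (MulAut.conj ū (O.yG hc hη t)).2 h3
      exact ⟨v, Subtype.ext hv⟩
    choose φ hφ using hP
    choose ψ hψ using hQ
    have hφ1 : φ 1 ≠ 0 := by
      intro h0
      have h2 := hφ 1
      rw [h0] at h2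
      have h5 : O.xG (0 : L) = 1 := SL2Hom.x_zero (O.relG hc hη)
      rw [h5] at h2
      have h3 : O.xG (1 : L) = 1 := (MulAut.conj ū).injective (h2.trans (map_one _).symm)
      have h4 := O.inj_x (1 : L) 0 (by
        have := congrArg Subtype.val (h3.trans h5.symm)
        exact this)
      exact one_ne_zero h4
    have heq := Cfsg.Agent.Lib.ChevAut.Rank1.eq1 (O.relG hc hη) (O.relG hc hη) (MulAut.conj ū).toMonoidHom hφ hψ
      (fun τ v he => O.sep τ v (congrArg Subtype.val he)) hφ1 (t := 1) one_ne_zero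
    have h5 : ψ (-1⁻¹) = -(φ 1)⁻¹ := by
      generalize ψ (-1⁻¹) = v at heq ⊢
      field_simp
      linear_combination heq
    have hw1 := O.w_one (ε := ε)
    have hwcoe : ∀ t, ((w O.xG (O.yG hc hη) t : ↥G1) : GL D.Idx F) = w (xL hR.toAddRel j.1 ε) (yL hR.toAddRel j.1 ε) t := by
      intro t
      rfl
    have h6 : (u * prodA hR j.1 * u⁻¹ : GL D.Idx F) = w (xL hR.toAddRel j.1 ε) (yL hR.toAddRel j.1 ε) (φ 1) := by
      have e1 : ((MulAut.conj ū (w O.xG (O.yG hc hη) 1) : ↥G1) : GL D.Idx F) = u * prodA hR j.1 * u⁻¹ := by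
        rw [MulAut.conj_apply]
        show u * ((w O.xG (O.yG hc hη) 1 : ↥G1) : GL D.Idx F) * u⁻¹ = _
        rw [hwcoe, hw1]
      have e2 : MulAut.conj ū (w O.xG (O.yG hc hη) 1) = w O.xG (O.yG hc hη) (φ 1) := by
        simp only [SL2Hom.w, map_mul, hφ, hψ, h5]
      rw [← e1, e2, hwcoe]
    have h7 := w_eq_nJ (hA := hR.toAddRel) O.hnd O.hO ε hφ1
    obtain ⟨h'', hh'', e₅⟩ := nJ_form hR hT (J := j.1) (I.orth.lt j.1 j.2) (d := fun i => ε i (φ 1))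
      (fun i _ => by simpa using hφ1)
    have h8 : u * prodA hR j.1 * u⁻¹ ∈ D.monomialSubgroup F := by
      rw [h6, h7, e₅]
      exact Subgroup.mul_mem _ (H_le_N hR hh'') (prodA_mem_N hR hT (I.orth.lt j.1 j.2))
    have h9 := Subgroup.inv_mem _ h8
    have e9 : (u * prodA hR j.1 * u⁻¹)⁻¹ = u * (prodA hR j.1)⁻¹ * u⁻¹ := by group
    rw [e9] at h9
    exact h9
  have h1 : u = 1 := congrArg Subtype.val hu1
  rw [e, h1, one_mul]
  exact hh

end Inst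

end Cfsg.Agent.Lib.Twisted
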