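import Cfsg.Agent.Lib.Twisted.AutBase
import Cfsg.Agent.Lib.Twisted.Count

/-!
# Automorphisms of twisted groups: permutation of the fundamental root groups
-/

set_option autoImplicit false
set_option linter.unusedSectionVars false

namespace Cfsg.Agent.Lib.Twisted

open Cfsg.Lie Cfsg.Agent.Lib.ChevBN.Elem Cfsg.Agent.Lib.ChevBN.Entries Cfsg.Agent.Lib.ChevBN.Table
open Cfsg.Agent.Lib.ChevBN.Collect Cfsg.Agent.Lib.ChevBN.Rel Cfsg.Agent.Lib.ChevBN.Torus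
open Cfsg.Agent.Lib.ChevBN.Monomial Cfsg.Agent.Lib.ChevBN.Core Cfsg.Agent.Lib.ChevBN.Pair
open Cfsg.Agent.Lib.ChevBN.Stmts Cfsg.Agent.Lib.ChevBN.Opp Cfsg.Agent.Lib.ChevBN.Perfect
open Cfsg.Agent.Lib.ChevOrder.Chev Cfsg.Agent.Lib.ChevOrder.BNCount
open Cfsg.Agent.Lib.BNPair.Basic Cfsg.Agent.Lib.BNPair.Parabolic

variable {D : ChevalleyDatum} {F : Type*} [Field F] {η : ℕ → ℕ → ℤ}

section Abstract

variable {G : Type*} [Group G] {P : Cfsg.BNPair G}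

/-- An automorphism preserving `B` permutes the minimal parabolic subgroups. -/
theorem bn_exists_image {θ : G ≃* G} (hB : ∀ g, θ g ∈ P.B ↔ g ∈ P.B) {s₀ : G} (hs₀ : s₀ ∈ P.S) :
    ∃ s' ∈ P.S, ∀ g, θ g ∈ P.parabolic {s'} ↔ g ∈ P.parabolic {s₀} := by
  classical
  have hsing : ({s₀} : Set G) ⊆ P.S := by simpa using hs₀
  let M : Subgroup G := (P.parabolic {s₀}).map θ.toMonoidHom
  have hmemM : ∀ g, θ g ∈ M ↔ g ∈ P.parabolic {s₀} := by
    intro g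
    constructor
    · rintro ⟨a, ha, e⟩
      have : a = g := θ.injective e
      rwa [← this]
    · intro h
      exact ⟨g, h, rfl⟩
  have hBM : P.B ≤ M := by
    intro b hb
    have h1 : θ (θ.symm b) ∈ P.B := by simpa using hb
    have h2 : θ.symm b ∈ P.B := (hB _).1 h1
    have h3 : θ (θ.symm b) ∈ M := (hmemM _).2 (B_le_parabolic _ h2)
    simpa using h3
  have hM := eq_parabolic_of_le hBM
  have hs₀mem : s₀ ∈ P.parabolic {s₀} := closure_le_parabolic _ (Subgroup.subset_closure rfl)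
  have hex : ∃ s, s ∈ P.S ∧ s ∈ M := by
    by_contra hcon
    have hempty : {s | s ∈ P.S ∧ s ∈ M} = ∅ := by
      ext s
      simp only [Set.mem_ofPred_eq, Set.mem_empty_iff_false, iff_false]
      intro h
      exact hcon ⟨s, h⟩
    rw [hempty] at hM
    have h1 : θ s₀ ∈ M := (hmemM _).2 hs₀mem
    rw [hM] at h1
    have h2 : P.parabolic ∅ = P.B := by
      simp [Cfsg.BNPair.parabolic]
    rw [h2] at h1
    exact s_not_mem_B hs₀ ((hB _).1 h1)
  obtain ⟨s, hs, hsM⟩ := hex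
  refine ⟨s, hs, ?_⟩
  have hPj : P.parabolic {s} ≤ M := by
    refine sup_le hBM ?_
    rw [Subgroup.closure_le]
    rintro x rfl
    exact hsM
  let M' : Subgroup G := (P.parabolic {s}).map θ.symm.toMonoidHom
  have hmemM' : ∀ g, g ∈ M' ↔ θ g ∈ P.parabolic {s} := by
    intro g
    constructor
    · rintro ⟨a, ha, e⟩
      have : θ g = a := by
        rw [← e]
        simp
      rwa [this]
    · intro h
      exact ⟨θ g, h, by simp⟩
  have hM'i : M' ≤ P.parabolic {s₀} := by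
    intro g hg
    exact (hmemM g).1 (hPj ((hmemM' g).1 hg))
  have hBM' : P.B ≤ M' := by
    intro b hb
    exact (hmemM' b).2 (B_le_parabolic _ ((hB b).2 hb))
  have hM' := eq_parabolic_of_le hBM'
  have hsub : {s | s ∈ P.S ∧ s ∈ M'} ⊆ {s₀} := by
    rintro t ⟨hs1, hs2⟩
    exact (S_mem_parabolic_iff hsing hs1).1 (hM'i hs2)
  have hexi : s₀ ∈ M' := by
    by_contra hcon
    have hempty : {s | s ∈ P.S ∧ s ∈ M'} = ∅ := by
      ext t
      simp only [Set.mem_ofPred_eq, Set.mem_empty_iff_false, iff_false]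
      rintro ⟨h1, h2⟩
      have := hsub ⟨h1, h2⟩
      rw [Set.mem_singleton_iff] at this
      subst this
      exact hcon h2
    rw [hempty] at hM'
    have hsmem : s ∈ P.parabolic {s} := closure_le_parabolic _ (Subgroup.subset_closure rfl)
    have h1 : θ.symm s ∈ M' := (hmemM' _).2 (by simpa using hsmem)
    rw [hM'] at h1
    have h2 : P.parabolic ∅ = P.B := by
      simp [Cfsg.BNPair.parabolic]
    rw [h2] at h1
    have h3 := (hB _).2 h1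
    rw [MulEquiv.apply_symm_apply] at h3
    exact s_not_mem_B hs h3
  have hle : P.parabolic {s₀} ≤ M' := by
    refine sup_le hBM' ?_
    rw [Subgroup.closure_le]
    rintro x rfl
    exact hexi
  intro g
  rw [← hmemM' g]
  exact ⟨fun h => hM'i h, fun h => hle h⟩

end Abstract

/-- The negatives of the fundamental roots of a list. -/
def psiN (D : ChevalleyDatum) (J : List ℕ) : Set ℕ := {r | ∃ i ∈ J, r = D.neg (D.simple i)}

theorem yJ_mem {hA : AddRel D F} (J : List ℕ) (c : ℕ → F) : yJ hA J c ∈ gen hA (psiN D J) := by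
  apply Subgroup.list_prod_mem
  intro x hx
  obtain ⟨j, hj, rfl⟩ := List.mem_map.1 hx
  exact X_mem_gen _ (show D.neg (D.simple j) ∈ psiN D J from ⟨j, hj, rfl⟩) _

/-- The data of the longest word, with the opposition involution preserving the orbits. -/
structure StarW (D : ChevalleyDatum) (Js : List (List ℕ)) (w₀ : List (List ℕ)) : Prop where
  mem : ∀ J ∈ w₀, J ∈ Js
  neg : ∀ r, D.IsPosRoot r → D.IsNegRoot (w₀.flatten.foldr D.reflectRoot r)
  s1 : ∀ J ∈ Js, ∀ i ∈ J, ∃ j ∈ J, w₀.flatten.foldr D.reflectRoot (D.neg (D.simple i)) = D.simple j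
  s2 : ∀ J ∈ Js, ∀ j ∈ J, ∃ i ∈ J, w₀.flatten.foldr D.reflectRoot (D.neg (D.simple i)) = D.simple j

namespace Inst

variable {hR : Sys D F η} {hT : Tbl D} {T : Tw hR.toAddRel} {Js cl : List (List ℕ)}
  {G1 : Subgroup (GL D.Idx F)} (I : Inst hR hT T Js cl G1) [Finite F]

include I

/-- The generator of an orbit. -/
noncomputable def sJ (J : {J : List ℕ // J ∈ Js}) : ↥G1 :=
  ⟨prodA hR J.1, I.orth.prodA_mem_G1 hR hT I.comm I.hw J.2⟩

@[simp] theorem sJ_coe (J : {J : List ℕ // J ∈ Js}) : ((I.sJ J : ↥G1) : GL D.Idx F) = prodA hR J.1 := rfl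

theorem sJ_inj {a b : {J : List ℕ // J ∈ Js}} (h : I.sJ a = I.sJ b) : a = b := by
  apply I.fd.inj
  have h1 : prodA hR a.1 = prodA hR b.1 := congrArg Subtype.val h
  have e : (I.fd.n a)⁻¹ * I.fd.n b = 1 := by
    show (prodA hR a.1)⁻¹ * prodA hR b.1 = 1
    rw [h1]
    group
  rw [e]
  exact Subgroup.one_mem _

theorem lt_of_mem {J : {J : List ℕ // J ∈ Js}} : ∀ i ∈ J.1, i < D.rank := I.orth.lt J.1 J.2

/-- Root subgroups of `psiN` are conjugated by `n_J` to those of `psiL`. -/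
theorem conj_psiN_self (J : {J : List ℕ // J ∈ Js}) {g : GL D.Idx F} (hg : g ∈ gen hR.toAddRel (psiN D J.1)) :
    (prodA hR J.1)⁻¹ * g * prodA hR J.1 ∈ gen hR.toAddRel (psiL D J.1) := by
  have hl := I.orth.lt J.1 J.2
  have hN := prodA_mem_N hR hT hl
  have := conj_gen hR hT (Subgroup.inv_mem _ hN) (Ψ := psiN D J.1) (Ψ' := psiL D J.1)
    (fun r hr => by
      obtain ⟨i, hi, rfl⟩ := hr
      exact hT.neg_lt (hT.simple_lt (hl i hi))) ?_ hg
  · simpa using this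
  · rintro r ⟨i, hi, e⟩
    rw [pn_inv hR hT hN]
    have hs := hT.simple_lt (hl i hi)
    have e3 : pn hR hT hN ⟨D.simple i, hs⟩ = r := by
      apply Fin.ext
      rw [pn_prodA hR hT hl, e]
      exact I.orth.act1 J.1 J.2 i hi
    have e4 : (pn hR hT hN)⁻¹ r = ⟨D.simple i, hs⟩ := by
      rw [Equiv.Perm.inv_eq_iff_eq]
      exact e3.symm
    rw [e4]
    exact mem_psiL hi

variable {P : Cfsg.BNPair ↥G1} (hB : P.B = (D.borelSubgroup F ⊓ G1).subgroupOf G1)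
  (hN : P.N = (D.monomialSubgroup F ⊓ G1).subgroupOf G1)
  (hS : P.S = {g : ↥G1 | (g : GL D.Idx F) ∈ Set.range I.fd.n})

include hS in
theorem sJ_mem (J : {J : List ℕ // J ∈ Js}) : I.sJ J ∈ P.S := by
  rw [hS]
  exact ⟨J, rfl⟩

include hS in
theorem exists_sJ {s : ↥G1} (hs : s ∈ P.S) : ∃ J, s = I.sJ J := by
  rw [hS] at hs
  obtain ⟨J, e⟩ := hs
  exact ⟨J, Subtype.ext e.symm⟩

include hB hS in
/-- Root elements of the negatives of an orbit lie in its minimal parabolic. -/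
theorem mem_parabolic_of_psiN (J : {J : List ℕ // J ∈ Js}) {g : ↥G1}
    (hg : (g : GL D.Idx F) ∈ gen hR.toAddRel (psiN D J.1)) : g ∈ P.parabolic {I.sJ J} := by
  have h1 := I.conj_psiN_self J hg
  have hU : (prodA hR J.1)⁻¹ * (g : GL D.Idx F) * prodA hR J.1 ∈ D.posUnipotent F := by
    rw [posUnipotent_eq hR.toAddRel]
    refine gen_mono _ ?_ h1
    rintro r ⟨i, hi, rfl⟩
    exact hT.simple_pos i (I.orth.lt J.1 J.2 i hi)
  have hb : (I.sJ J)⁻¹ * g * I.sJ J ∈ P.B := (memPB I hB).2 (U_le_B hR hT hU)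
  have hs : I.sJ J ∈ P.parabolic {I.sJ J} := closure_le_parabolic _ (Subgroup.subset_closure rfl)
  have e : g = I.sJ J * ((I.sJ J)⁻¹ * g * I.sJ J) * (I.sJ J)⁻¹ := by group
  rw [e]
  exact Subgroup.mul_mem _ (Subgroup.mul_mem _ hs (B_le_parabolic _ hb)) (Subgroup.inv_mem _ hs)

include hB hS in
/-- The form of elements of the double coset of a generator. -/
theorem C_form {J : {J : List ℕ // J ∈ Js}} {g : ↥G1} (hg : g ∈ C P (I.sJ J)) :
    ∃ b : ↥G1, b ∈ P.B ∧ ∃ x ∈ gen hR.toAddRel (psiL D J.1) ⊓ T.Fx,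
      (g : GL D.Idx F) = (b : GL D.Idx F) * prodA hR J.1 * x := by
  obtain ⟨b₁, hb₁, b₂, hb₂, e⟩ := mem_C.1 hg
  obtain ⟨u, hu, huG, h, hh, hhG, e₁⟩ := I.split_B ((memPB I hB).1 (P.B.inv_mem hb₂)) (b₂⁻¹).2
  have e₂ : (b₂ : GL D.Idx F) = h⁻¹ * u⁻¹ := by
    have : (b₂ : GL D.Idx F) = (((b₂⁻¹ : ↥G1) : GL D.Idx F))⁻¹ := by simp
    rw [this, e₁]
    group
  obtain ⟨a, ha, x, hx, e₃⟩ := I.fd.decomp_fix J (u := u⁻¹) ⟨Subgroup.inv_mem _ hu, I.fix (Subgroup.inv_mem _ huG)⟩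
  have hn := I.fd.n_G1 J
  have hnN := I.fd.n_N J
  have haG : a ∈ G1 := I.U_le ⟨I.fd.gen_Cp_le_U J ha.1, ha.2⟩
  have haU : I.fd.n J * a * (I.fd.n J)⁻¹ ∈ D.posUnipotent F := by
    rw [posUnipotent_eq hR.toAddRel]
    refine conj_gen hR hT hnN (Ψ := I.fd.Cp J) (fun r hr => hr.1.1) ?_ ha.1
    intro r hr
    exact (I.fd.act_comp J r hr.1 hr.2).1
  have hhH : I.fd.n J * h⁻¹ * (I.fd.n J)⁻¹ ∈ D.diagonalSubgroup F :=
    H_norm_N hR hT hnN (Subgroup.inv_mem _ hh)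
  have hG3 : (I.fd.n J * h⁻¹ * (I.fd.n J)⁻¹) * (I.fd.n J * a * (I.fd.n J)⁻¹) ∈ G1 := by
    refine Subgroup.mul_mem _ (Subgroup.mul_mem _ (Subgroup.mul_mem _ hn (Subgroup.inv_mem _ hhG))
      (Subgroup.inv_mem _ hn)) (Subgroup.mul_mem _ (Subgroup.mul_mem _ hn haG) (Subgroup.inv_mem _ hn))
  let b₃ : ↥G1 := ⟨_, hG3⟩
  have hb₃ : b₃ ∈ P.B := (memPB I hB).2 (Subgroup.mul_mem _ (H_le_B hR hT hhH) (U_le_B hR hT haU))
  refine ⟨b₁ * b₃, P.B.mul_mem hb₁ hb₃, x, hx, ?_⟩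
  have e₄ : I.fd.n J = prodA hR J.1 := rfl
  rw [e]
  show (b₁ : GL D.Idx F) * prodA hR J.1 * (b₂ : GL D.Idx F) =
    (b₁ : GL D.Idx F) * ((I.fd.n J * h⁻¹ * (I.fd.n J)⁻¹) * (I.fd.n J * a * (I.fd.n J)⁻¹)) * prodA hR J.1 * x
  rw [e₂, e₃, e₄]
  group

include hB hN hS in
/-- `V¹ ∩ P_J` consists of root elements of the negatives of `J`. -/
theorem neg_inter {w₀ : List (List ℕ)} (hw₀ : StarW D Js w₀) (J : {J : List ℕ // J ∈ Js}) {g : ↥G1}
    (hV : (g : GL D.Idx F) ∈ D.negUnipotent F) (hg : g ∈ P.parabolic {I.sJ J}) :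
    (g : GL D.Idx F) ∈ gen hR.toAddRel (psiN D J.1) := by
  have hBV : ∀ {z : GL D.Idx F}, z ∈ D.borelSubgroup F → z ∈ D.negUnipotent F → z = 1 := by
    intro z h1 h2
    have h3 : z ∈ D.borelSubgroup F ⊓ D.negUnipotent F := ⟨h1, h2⟩
    rw [B_inf_V hR hT] at h3
    exact h3
  rw [mem_parabolic_singleton (I.sJ_mem hS J)] at hg
  rcases hg with hg | hg
  · rw [hBV ((memPB I hB).1 hg) hV]
    exact Subgroup.one_mem _
  · obtain ⟨b, hb, x, hx, e⟩ := I.C_form hB hS hg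
    have hbB := (memPB I hB).1 hb
    have hO := I.orth.okP hR hT I.comm J.2
    have hnd := I.orth.nodup J.1 J.2
    obtain ⟨t, rfl⟩ := exists_xJ hnd hO hx.1
    by_cases h0 : ∃ i ∈ J.1, t i = 0
    · exfalso
      obtain ⟨i, hi, ht⟩ := h0
      rw [I.orth.eq_one_of_coord hR hT I.comm J.2 hi ht hx.2.2, mul_one] at e
      have hnG := I.prodA_mem hw₀.mem
      have hl := I.flat_lt hw₀.mem
      have hnN := prodA_mem_N hR hT hl
      have hnn := I.opp_of_all_neg hnN (fun r hr => by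
        rw [pn_prodA hR hT hl]
        exact hw₀.neg _ hr)
      let n' : ↥G1 := ⟨_, hnG⟩
      let v : ↥G1 := n' * g * n'⁻¹
      have hv : (v : GL D.Idx F) ∈ D.posUnipotent F := (hnn.2 g).2 hV
      have hvB : v ∈ P.B := (memPB I hB).2 (U_le_B hR hT hv)
      have hnP : n' ∈ P.N := (memPN I hN).2 hnN
      have hsN : I.sJ J ∈ P.N := S_mem_N (I.sJ_mem hS J)
      have e₂ : n' * b = v * (n' * (I.sJ J)⁻¹) := by
        apply Subtype.ext
        show (n' : GL D.Idx F) * (b : GL D.Idx F) = ((n' : GL D.Idx F) * (g : GL D.Idx F) * (n' : GL D.Idx F)⁻¹) *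
          ((n' : GL D.Idx F) * (prodA hR J.1)⁻¹)
        rw [e]
        group
      have h1 : n' * b ∈ C P n' := mem_C.2 ⟨1, P.B.one_mem, b, hb, by simp⟩
      have h2 : n' * b ∈ C P (n' * (I.sJ J)⁻¹) :=
        mem_C.2 ⟨v, hvB, 1, P.B.one_mem, by rw [e₂]; simp⟩
      have h3 := C_eq_of_mem_both h2 h1
      have h4 := (C_eq_iff (P.N.mul_mem hnP (P.N.inv_mem hsN)) hnP).1 h3
      apply s_not_mem_B (I.sJ_mem hS J)
      have e₃ : (n' * (I.sJ J)⁻¹)⁻¹ * n' = I.sJ J := by group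
      rwa [e₃] at h4
    · push Not at h0
      have hc : ∀ i ∈ J.1, (t i)⁻¹ ≠ 0 := fun i hi => inv_ne_zero (h0 i hi)
      have hy := yJ_eq (hA := hR.toAddRel) hnd hO hc
      simp only [inv_inv] at hy
      obtain ⟨h', hh', e₅⟩ := nJ_form hR hT (J := J.1) (I.orth.lt J.1 J.2) (d := fun i => -t i)
        (fun i hi => neg_ne_zero.mpr (h0 i hi))
      have hyV : yJ hR.toAddRel J.1 (fun i => (t i)⁻¹) ∈ gen hR.toAddRel (psiN D J.1) := yJ_mem _ _
      have hyV' : yJ hR.toAddRel J.1 (fun i => (t i)⁻¹) ∈ D.negUnipotent F := by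
        rw [negUnipotent_eq hR.toAddRel]
        refine gen_mono _ ?_ hyV
        rintro r ⟨i, hi, rfl⟩
        exact hT.neg_of_pos (hT.simple_pos i (I.orth.lt J.1 J.2 i hi))
      have h2 : (g : GL D.Idx F) * (yJ hR.toAddRel J.1 (fun i => (t i)⁻¹))⁻¹ = 1 := by
        apply hBV
        · have e₂ : (g : GL D.Idx F) * (yJ hR.toAddRel J.1 (fun i => (t i)⁻¹))⁻¹ =
              (b : GL D.Idx F) * h'⁻¹ * (xJ hR.toAddRel J.1 t)⁻¹ := by
            rw [e, hy, e₅]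
            group
          rw [e₂]
          have hxU : xJ hR.toAddRel J.1 t ∈ D.posUnipotent F := by
            rw [posUnipotent_eq hR.toAddRel]
            refine gen_mono _ ?_ hx.1
            rintro r ⟨i, hi, rfl⟩
            exact hT.simple_pos i (I.orth.lt J.1 J.2 i hi)
          exact Subgroup.mul_mem _ (Subgroup.mul_mem _ hbB (Subgroup.inv_mem _ (H_le_B hR hT hh')))
            (Subgroup.inv_mem _ (U_le_B hR hT hxU))
        · exact Subgroup.mul_mem _ hV (Subgroup.inv_mem _ hyV')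
      rw [mul_inv_eq_one.mp h2]
      exact hyV

theorem finite_idx : Finite {J : List ℕ // J ∈ Js} := (List.finite_toSet Js).to_subtype

include hB hN hS in
/-- An automorphism preserving `U¹`, `V¹` permutes the root subgroups of the negatives of the orbits. -/
theorem exists_perm_neg {w₀ : List (List ℕ)} (hw₀ : StarW D Js w₀) {θ : ↥G1 ≃* ↥G1} (hU : PresUT θ)
    (hV : PresVT θ) : ∃ π : Equiv.Perm {J : List ℕ // J ∈ Js}, ∀ (J : {J : List ℕ // J ∈ Js}) (g : ↥G1),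
      (g : GL D.Idx F) ∈ gen hR.toAddRel (psiN D J.1) →
        ((θ g : ↥G1) : GL D.Idx F) ∈ gen hR.toAddRel (psiN D (π J).1) := by
  classical
  have := I.finite_idx
  have hBθ : ∀ g, θ g ∈ P.B ↔ g ∈ P.B := by
    intro g
    rw [memPB I hB, memPB I hB]
    exact I.presB hB hN hU g
  have hex : ∀ J, ∃ J', ∀ g, θ g ∈ P.parabolic {I.sJ J'} ↔ g ∈ P.parabolic {I.sJ J} := by
    intro J
    obtain ⟨s', hs', h⟩ := bn_exists_image hBθ (I.sJ_mem hS J)
    obtain ⟨J', rfl⟩ := I.exists_sJ hS hs'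
    exact ⟨J', h⟩
  choose f hf using hex
  have hinj : Function.Injective f := by
    intro a b hab
    have hsa : I.sJ a ∈ P.parabolic {I.sJ a} := closure_le_parabolic _ (Subgroup.subset_closure rfl)
    have h1 := (hf a (I.sJ a)).2 hsa
    rw [hab] at h1
    have h2 := (hf b _).1 h1
    have hsing : ({I.sJ b} : Set ↥G1) ⊆ P.S := by simpa using I.sJ_mem hS b
    have h3 := (S_mem_parabolic_iff hsing (I.sJ_mem hS a)).1 h2
    exact I.sJ_inj h3
  refine ⟨Equiv.ofBijective f (Finite.injective_iff_bijective.mp hinj), fun J g hg => ?_⟩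
  have h1 : θ g ∈ P.parabolic {I.sJ (f J)} := (hf J g).2 (I.mem_parabolic_of_psiN hB hS J hg)
  have h2 : ((θ g : ↥G1) : GL D.Idx F) ∈ D.negUnipotent F := by
    rw [hV g, negUnipotent_eq hR.toAddRel]
    refine gen_mono _ ?_ hg
    rintro r ⟨i, hi, rfl⟩
    exact hT.neg_of_pos (hT.simple_pos i (I.orth.lt J.1 J.2 i hi))
  exact I.neg_inter hB hN hS hw₀ (f J) h2 h1

/-- The longest element is in `G¹`. -/
noncomputable def n0 {w₀ : List (List ℕ)} (hw₀ : StarW D Js w₀) : ↥G1 := ⟨prodA hR w₀.flatten, I.prodA_mem hw₀.mem⟩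

@[simp] theorem n0_coe {w₀ : List (List ℕ)} (hw₀ : StarW D Js w₀) :
    ((I.n0 hw₀ : ↥G1) : GL D.Idx F) = prodA hR w₀.flatten := rfl

theorem n0_opp {w₀ : List (List ℕ)} (hw₀ : StarW D Js w₀) :
    (∀ g : GL D.Idx F, prodA hR w₀.flatten * g * (prodA hR w₀.flatten)⁻¹ ∈ D.negUnipotent F ↔ g ∈ D.posUnipotent F) ∧
    (∀ g : GL D.Idx F, prodA hR w₀.flatten * g * (prodA hR w₀.flatten)⁻¹ ∈ D.posUnipotent F ↔ g ∈ D.negUnipotent F) := by
  have hl := I.flat_lt hw₀.mem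
  have hnN := prodA_mem_N hR hT hl
  exact I.opp_of_all_neg hnN (fun r hr => by
    rw [pn_prodA hR hT hl]
    exact hw₀.neg _ hr)

theorem star_neg {w₀ : List (List ℕ)} (hw₀ : StarW D Js w₀) (J : {J : List ℕ // J ∈ Js}) {g : GL D.Idx F}
    (hg : g ∈ gen hR.toAddRel (psiN D J.1)) :
    prodA hR w₀.flatten * g * (prodA hR w₀.flatten)⁻¹ ∈ gen hR.toAddRel (psiL D J.1) := by
  have hl := I.flat_lt hw₀.mem
  have hnN := prodA_mem_N hR hT hl
  refine conj_gen hR hT hnN (Ψ := psiN D J.1) (Ψ' := psiL D J.1) (fun r hr => ?_) ?_ hg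
  · obtain ⟨i, hi, rfl⟩ := hr
    exact hT.neg_lt (hT.simple_lt (I.orth.lt J.1 J.2 i hi))
  · rintro r ⟨i, hi, e⟩
    rw [pn_prodA hR hT hl, e]
    obtain ⟨j, hj, e2⟩ := hw₀.s1 J.1 J.2 i hi
    rw [e2]
    exact mem_psiL hj

theorem star_pos {w₀ : List (List ℕ)} (hw₀ : StarW D Js w₀) (J : {J : List ℕ // J ∈ Js}) {g : GL D.Idx F}
    (hg : g ∈ gen hR.toAddRel (psiL D J.1)) :
    (prodA hR w₀.flatten)⁻¹ * g * prodA hR w₀.flatten ∈ gen hR.toAddRel (psiN D J.1) := by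
  have hl := I.flat_lt hw₀.mem
  have hnN := prodA_mem_N hR hT hl
  have := conj_gen hR hT (Subgroup.inv_mem _ hnN) (Ψ := psiL D J.1) (Ψ' := psiN D J.1) (fun r hr => ?_) ?_ hg
  · simpa using this
  · obtain ⟨i, hi, rfl⟩ := hr
    exact hT.simple_lt (I.orth.lt J.1 J.2 i hi)
  · rintro r ⟨j, hj, e⟩
    rw [pn_inv hR hT hnN]
    obtain ⟨i, hi, e2⟩ := hw₀.s2 J.1 J.2 j hj
    have hs := hT.neg_lt (hT.simple_lt (I.orth.lt J.1 J.2 i hi))
    have e3 : pn hR hT hnN ⟨D.neg (D.simple i), hs⟩ = r := by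
      apply Fin.ext
      rw [pn_prodA hR hT hl, e, ← e2]
    have e4 : (pn hR hT hnN)⁻¹ r = ⟨D.neg (D.simple i), hs⟩ := by
      rw [Equiv.Perm.inv_eq_iff_eq]
      exact e3.symm
    rw [e4]
    exact ⟨i, hi, rfl⟩

end Inst

/-- The automorphism `g ↦ n⁻¹ θ(n g n⁻¹) n`. -/
def conjSw {G : Type*} [Group G] (θ : G ≃* G) (n : G) : G ≃* G :=
  (MulAut.conj n).trans (θ.trans (MulAut.conj n⁻¹))

@[simp] theorem conjSw_apply {G : Type*} [Group G] (θ : G ≃* G) (n g : G) :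
    conjSw θ n g = n⁻¹ * θ (n * g * n⁻¹) * n := by
  simp [conjSw]

namespace Inst

variable {hR : Sys D F η} {hT : Tbl D} {T : Tw hR.toAddRel} {Js cl : List (List ℕ)}
  {G1 : Subgroup (GL D.Idx F)} (I : Inst hR hT T Js cl G1) [Finite F]

include I

theorem conjSw_good {w₀ : List (List ℕ)} (hw₀ : StarW D Js w₀) {θ : ↥G1 ≃* ↥G1} (hU : PresUT θ)
    (hV : PresVT θ) : PresUT (conjSw θ (I.n0 hw₀)) ∧ PresVT (conjSw θ (I.n0 hw₀)) := by
  obtain ⟨h1, h2⟩ := I.n0_opp hw₀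
  have key : ∀ g : ↥G1, (prodA hR w₀.flatten) * ((conjSw θ (I.n0 hw₀) g : ↥G1) : GL D.Idx F) * (prodA hR w₀.flatten)⁻¹ =
      ((θ (I.n0 hw₀ * g * (I.n0 hw₀)⁻¹) : ↥G1) : GL D.Idx F) := by
    intro g
    rw [conjSw_apply]
    show _ * (((I.n0 hw₀ : ↥G1) : GL D.Idx F)⁻¹ * ((θ (I.n0 hw₀ * g * (I.n0 hw₀)⁻¹) : ↥G1) : GL D.Idx F) *
      ((I.n0 hw₀ : ↥G1) : GL D.Idx F)) * _ = _
    rw [n0_coe]
    group
  constructor
  · intro g
    rw [← h1, ← h1 (g : GL D.Idx F), key]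
    exact hV _
  · intro g
    rw [← h2, ← h2 (g : GL D.Idx F), key]
    exact hU _

theorem conjSw_good' {w₀ : List (List ℕ)} (hw₀ : StarW D Js w₀) {θ : ↥G1 ≃* ↥G1} (hU : PresUT θ)
    (hV : PresVT θ) : PresUT (conjSw θ (I.n0 hw₀)⁻¹) ∧ PresVT (conjSw θ (I.n0 hw₀)⁻¹) := by
  obtain ⟨h1, h2⟩ := I.n0_opp hw₀
  have key : ∀ g : ↥G1, ((conjSw θ (I.n0 hw₀)⁻¹ g : ↥G1) : GL D.Idx F) =
      (prodA hR w₀.flatten) * ((θ ((I.n0 hw₀)⁻¹ * g * (I.n0 hw₀)) : ↥G1) : GL D.Idx F) * (prodA hR w₀.flatten)⁻¹ := by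
    intro g
    rw [conjSw_apply, inv_inv]
    rfl
  have key2 : ∀ g : ↥G1, (prodA hR w₀.flatten) * (((I.n0 hw₀)⁻¹ * g * (I.n0 hw₀) : ↥G1) : GL D.Idx F) * (prodA hR w₀.flatten)⁻¹ =
      (g : GL D.Idx F) := by
    intro g
    show _ * (((I.n0 hw₀ : ↥G1) : GL D.Idx F)⁻¹ * (g : GL D.Idx F) * ((I.n0 hw₀ : ↥G1) : GL D.Idx F)) * _ = _
    rw [n0_coe]
    group
  constructor
  · intro g
    rw [key, h2, hV, ← h2, key2]
  · intro g
    rw [key, h1, hU, ← h1, key2]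

variable {P : Cfsg.BNPair ↥G1} (hB : P.B = (D.borelSubgroup F ⊓ G1).subgroupOf G1)
  (hN : P.N = (D.monomialSubgroup F ⊓ G1).subgroupOf G1)
  (hS : P.S = {g : ↥G1 | (g : GL D.Idx F) ∈ Set.range I.fd.n})

include hB hN hS in
/-- An automorphism preserving `U¹`, `V¹` permutes the root subgroups of the orbits. -/
theorem exists_perm_pos {w₀ : List (List ℕ)} (hw₀ : StarW D Js w₀) {θ : ↥G1 ≃* ↥G1} (hU : PresUT θ)
    (hV : PresVT θ) : ∃ π : Equiv.Perm {J : List ℕ // J ∈ Js}, ∀ (J : {J : List ℕ // J ∈ Js}) (g : ↥G1),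
      (g : GL D.Idx F) ∈ gen hR.toAddRel (psiL D J.1) →
        ((θ g : ↥G1) : GL D.Idx F) ∈ gen hR.toAddRel (psiL D (π J).1) := by
  obtain ⟨h1, h2⟩ := I.conjSw_good hw₀ hU hV
  obtain ⟨π, hπ⟩ := I.exists_perm_neg hB hN hS hw₀ h1 h2
  refine ⟨π, fun J g hg => ?_⟩
  let g₀ : ↥G1 := (I.n0 hw₀)⁻¹ * g * I.n0 hw₀
  have h3 : (g₀ : GL D.Idx F) ∈ gen hR.toAddRel (psiN D J.1) := I.star_pos hw₀ J hg
  have h4 := I.star_neg hw₀ (π J) (hπ J g₀ h3)
  have e : (prodA hR w₀.flatten) * ((conjSw θ (I.n0 hw₀) g₀ : ↥G1) : GL D.Idx F) * (prodA hR w₀.flatten)⁻¹ =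
      ((θ g : ↥G1) : GL D.Idx F) := by
    rw [conjSw_apply]
    have e2 : I.n0 hw₀ * g₀ * (I.n0 hw₀)⁻¹ = g := by
      simp only [g₀]
      group
    rw [e2]
    show _ * (((I.n0 hw₀ : ↥G1) : GL D.Idx F)⁻¹ * ((θ g : ↥G1) : GL D.Idx F) * ((I.n0 hw₀ : ↥G1) : GL D.Idx F)) * _ = _
    rw [n0_coe]
    group
  rwa [e] at h4

include I in
/-- If all good automorphisms preserve the positive root groups of the orbits, they preserve the negative ones. -/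
theorem neg_of_pos {w₀ : List (List ℕ)} (hw₀ : StarW D Js w₀)
    (hid : ∀ θ : ↥G1 ≃* ↥G1, PresUT θ → PresVT θ → ∀ (J : {J : List ℕ // J ∈ Js}) (g : ↥G1),
      (g : GL D.Idx F) ∈ gen hR.toAddRel (psiL D J.1) → ((θ g : ↥G1) : GL D.Idx F) ∈ gen hR.toAddRel (psiL D J.1))
    {θ : ↥G1 ≃* ↥G1} (hU : PresUT θ) (hV : PresVT θ) (J : {J : List ℕ // J ∈ Js}) (g : ↥G1)
    (hg : (g : GL D.Idx F) ∈ gen hR.toAddRel (psiN D J.1)) :
    ((θ g : ↥G1) : GL D.Idx F) ∈ gen hR.toAddRel (psiN D J.1) := by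
  obtain ⟨h1, h2⟩ := I.conjSw_good' hw₀ hU hV
  let x : ↥G1 := I.n0 hw₀ * g * (I.n0 hw₀)⁻¹
  have hx : (x : GL D.Idx F) ∈ gen hR.toAddRel (psiL D J.1) := I.star_neg hw₀ J hg
  have h3 := hid _ h1 h2 J x hx
  have h4 := I.star_pos hw₀ J h3
  have e : (prodA hR w₀.flatten)⁻¹ * ((conjSw θ (I.n0 hw₀)⁻¹ x : ↥G1) : GL D.Idx F) * prodA hR w₀.flatten =
      ((θ g : ↥G1) : GL D.Idx F) := by
    rw [conjSw_apply, inv_inv]
    have e2 : (I.n0 hw₀)⁻¹ * x * I.n0 hw₀ = g := by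
      simp only [x]
      group
    rw [e2]
    show _ * (((I.n0 hw₀ : ↥G1) : GL D.Idx F) * ((θ g : ↥G1) : GL D.Idx F) * ((I.n0 hw₀ : ↥G1) : GL D.Idx F)⁻¹) * _ = _
    rw [n0_coe]
    group
  rwa [e] at h4

end Inst


end Cfsg.Agent.Lib.Twisted
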