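import Cfsg.Agent.Lib.Twisted.AutPerm
import Cfsg.Agent.Lib.ChevAut.Rank1
import Cfsg.Agent.Lib.Chevalley.SL2Root

/-!
# Automorphisms of twisted groups: the rank one analysis
-/

set_option autoImplicit false
set_option linter.unusedSectionVars false

namespace Cfsg.Agent.Lib.Twisted

open Cfsg.Agent.Lib.Chevalley.SL2Hom (w h Rel)
open Cfsg.Agent.Lib.Chevalley

section RelLemmas

variable {L F₁ G : Type*} [Field L] [Field F₁] [Group G]

/-- The relations pull back along a ring homomorphism. -/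
theorem rel_comp {x y : F₁ → G} (hR : Rel x y) (ε : L →+* F₁) :
    Rel (fun t => x (ε t)) (fun t => y (ε t)) := by
  have hw : ∀ t : L, w (fun t => x (ε t)) (fun t => y (ε t)) t = w x y (ε t) := by
    intro t
    simp [SL2Hom.w]
  have hh : ∀ t : L, h (fun t => x (ε t)) (fun t => y (ε t)) t = h x y (ε t) := by
    intro t
    simp [SL2Hom.h, hw]
  have hne : ∀ t : L, t ≠ 0 → ε t ≠ 0 := fun t ht => by simpa using ht
  refine ⟨fun a b => ?_, fun a b => ?_, fun u => ?_, fun s t hs ht => ?_, fun s hs u => ?_⟩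
  · simp [hR.addx]
  · simp [hR.addy]
  · rw [hw, hw, map_neg, map_one]
    have := hR.wconj (ε u)
    simpa using this
  · rw [hh, hh, hh, hR.hmul _ _ (hne s hs) (hne t ht), map_mul]
  · rw [hh]
    simp only [map_mul]
    exact hR.hconj _ (hne s hs) _

theorem rel_one : Rel (fun _ : L => (1 : G)) (fun _ : L => (1 : G)) := by
  have hw : ∀ t : L, w (fun _ : L => (1 : G)) (fun _ : L => (1 : G)) t = 1 := by
    intro t
    simp [SL2Hom.w]
  have hh : ∀ t : L, h (fun _ : L => (1 : G)) (fun _ : L => (1 : G)) t = 1 := by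
    intro t
    simp [SL2Hom.h, hw]
  refine ⟨fun a b => by simp, fun a b => by simp, fun u => ?_, fun s t hs ht => ?_, fun s hs u => ?_⟩
  · simp [hw]
  · simp [hh]
  · simp

/-- The relations for commuting pairs. -/
theorem rel_mul {x₁ y₁ x₂ y₂ : L → G} (h₁ : Rel x₁ y₁) (h₂ : Rel x₂ y₂)
    (hc : ∀ a b, Commute (x₁ a) (x₂ b) ∧ Commute (x₁ a) (y₂ b) ∧ Commute (y₁ a) (x₂ b) ∧ Commute (y₁ a) (y₂ b)) :
    Rel (fun t => x₁ t * x₂ t) (fun t => y₁ t * y₂ t) := by
  have hwx : ∀ a b, Commute (x₁ a) (w x₂ y₂ b) := fun a b =>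
    ((hc a b).1.mul_right ((hc a _).2.1)).mul_right (hc a b).1
  have hwy : ∀ a b, Commute (y₁ a) (w x₂ y₂ b) := fun a b =>
    ((hc a b).2.2.1.mul_right ((hc a _).2.2.2)).mul_right (hc a b).2.2.1
  have hww : ∀ a b, Commute (w x₁ y₁ a) (w x₂ y₂ b) := fun a b =>
    ((hwx a b).mul_left (hwy _ b)).mul_left (hwx a b)
  have hwm : ∀ t, w (fun t => x₁ t * x₂ t) (fun t => y₁ t * y₂ t) t = w x₁ y₁ t * w x₂ y₂ t := by
    intro t
    simp only [SL2Hom.w]
    have c1 := (hc t t).1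
    have c2 := (hc t (-t⁻¹)).1
    have c3 := (hc (-t⁻¹) t).2.2.1
    have c4 := (hc t (-t⁻¹)).2.1
    set a := x₁ t
    set b := x₂ t
    set c := y₁ (-t⁻¹)
    set d := y₂ (-t⁻¹)
    calc a * b * (c * d) * (a * b) = a * (b * c) * d * (a * b) := by group
      _ = a * (c * b) * d * (a * b) := by rw [c3.eq]
      _ = a * c * (b * d * a) * b := by group
      _ = a * c * (a * b * d) * b := by
          have : b * d * a = a * b * d := by
            have h1 : d * a = a * d := c4.eq.symm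
            have h2 : b * a = a * b := c1.eq.symm
            calc b * d * a = b * (d * a) := by group
              _ = b * (a * d) := by rw [h1]
              _ = (b * a) * d := by group
              _ = a * b * d := by rw [h2]
          rw [this]
      _ = a * c * a * (b * d * b) := by group
  have hhm : ∀ t, h (fun t => x₁ t * x₂ t) (fun t => y₁ t * y₂ t) t = h x₁ y₁ t * h x₂ y₂ t := by
    intro t
    simp only [SL2Hom.h, hwm]
    have c := hww (-1) t
    set a := w x₁ y₁ t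
    set b := w x₂ y₂ t
    set a' := w x₁ y₁ (-1)
    set b' := w x₂ y₂ (-1)
    calc a * b * (a' * b') = a * (b * a') * b' := by group
      _ = a * (a' * b) * b' := by rw [c.eq]
      _ = _ := by group
  have hhh : ∀ a b, Commute (h x₁ y₁ a) (h x₂ y₂ b) := fun a b => by
    simp only [SL2Hom.h]
    exact ((hww a b).mul_right (hww a _)).mul_left ((hww _ b).mul_right (hww _ _))
  have hhx : ∀ a b, Commute (h x₁ y₁ a) (x₂ b) := by
    intro a b
    have hxw : ∀ c, Commute (w x₁ y₁ c) (x₂ b) := fun c =>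
      (((hc c b).1.mul_left (hc _ b).2.2.1).mul_left (hc c b).1)
    simp only [SL2Hom.h]
    exact (hxw a).mul_left (hxw _)
  have hxh : ∀ a b, Commute (x₁ a) (h x₂ y₂ b) := by
    intro a b
    simp only [SL2Hom.h]
    exact (hwx a b).mul_right (hwx a _)
  refine ⟨fun a b => ?_, fun a b => ?_, fun u => ?_, fun s t hs ht => ?_, fun s hs u => ?_⟩
  · have e := (hc b a).1.eq
    calc x₁ a * x₂ a * (x₁ b * x₂ b) = x₁ a * (x₂ a * x₁ b) * x₂ b := by group
      _ = x₁ a * (x₁ b * x₂ a) * x₂ b := by rw [e]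
      _ = (x₁ a * x₁ b) * (x₂ a * x₂ b) := by group
      _ = _ := by rw [h₁.addx, h₂.addx]
  · have e := (hc b a).2.2.2.eq
    calc y₁ a * y₂ a * (y₁ b * y₂ b) = y₁ a * (y₂ a * y₁ b) * y₂ b := by group
      _ = y₁ a * (y₁ b * y₂ a) * y₂ b := by rw [e]
      _ = (y₁ a * y₁ b) * (y₂ a * y₂ b) := by group
      _ = _ := by rw [h₁.addy, h₂.addy]
  · rw [hwm, hwm]
    have c1 := hwx u (-1)
    have c2 := hww (1) (-1)
    have c3 := hwx u 1
    have e1 := h₁.wconj u
    have e2 := h₂.wconj u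
    have c4 : Commute (w x₂ y₂ (-1)) (w x₁ y₁ 1) := (hww 1 (-1)).symm
    have c5 : Commute (x₂ u) (w x₁ y₁ 1) := by
      have hxw : ∀ c, Commute (w x₁ y₁ c) (x₂ u) := fun c =>
        (((hc c u).1.mul_left (hc _ u).2.2.1).mul_left (hc c u).1)
      exact (hxw 1).symm
    rw [← e1, ← e2]
    set a := w x₁ y₁ (-1)
    set b := w x₂ y₂ (-1)
    set c := x₁ u
    set d := x₂ u
    set a' := w x₁ y₁ 1
    set b' := w x₂ y₂ 1
    have c6 : b * c = c * b := c1.eq.symm
    calc a * b * (c * d) * (a' * b') = a * (b * c) * d * (a' * b') := by group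
      _ = a * (c * b) * d * (a' * b') := by rw [c6]
      _ = a * c * (b * d * a') * b' := by group
      _ = a * c * (a' * (b * d)) * b' := by
          have h1 : b * d * a' = a' * (b * d) := by
            calc b * d * a' = b * (d * a') := by group
              _ = b * (a' * d) := by rw [c5.eq]
              _ = (b * a') * d := by group
              _ = (a' * b) * d := by rw [c4.eq]
              _ = _ := by group
          rw [h1]
      _ = _ := by group
  · rw [hhm, hhm, hhm, ← h₁.hmul s t hs ht, ← h₂.hmul s t hs ht]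
    have e := (hhh t s).eq
    calc h x₁ y₁ s * h x₂ y₂ s * (h x₁ y₁ t * h x₂ y₂ t) = h x₁ y₁ s * (h x₂ y₂ s * h x₁ y₁ t) * h x₂ y₂ t := by group
      _ = h x₁ y₁ s * (h x₁ y₁ t * h x₂ y₂ s) * h x₂ y₂ t := by rw [e]
      _ = _ := by group
  · rw [hhm, ← h₁.hconj s hs u, ← h₂.hconj s hs u]
    have c1 := (hhx s u).eq
    have c2 := (hxh u s).eq
    have c3 := (hhh s s).eq
    set a := h x₁ y₁ s
    set b := h x₂ y₂ s
    set c := x₁ u
    set d := x₂ u
    have c1' : a⁻¹ * d = d * a⁻¹ := by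
      have : a * d = d * a := c1
      calc a⁻¹ * d = a⁻¹ * (d * a) * a⁻¹ := by group
        _ = a⁻¹ * (a * d) * a⁻¹ := by rw [this]
        _ = _ := by group
    have c2' : b⁻¹ * c = c * b⁻¹ := by
      have : c * b = b * c := c2
      calc b⁻¹ * c = b⁻¹ * (c * b) * b⁻¹ := by group
        _ = b⁻¹ * (b * c) * b⁻¹ := by rw [this]
        _ = _ := by group
    have c3' : a⁻¹ * b = b * a⁻¹ := by
      calc a⁻¹ * b = a⁻¹ * (b * a) * a⁻¹ := by group
        _ = a⁻¹ * (a * b) * a⁻¹ := by rw [c3]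
        _ = _ := by group
    calc a * b * (c * d) * (a * b)⁻¹ = a * (b * c * b⁻¹) * (b * d * b⁻¹) * a⁻¹ := by group
      _ = a * c * (b * d * b⁻¹) * a⁻¹ := by
          rw [show b * c * b⁻¹ = c by
            calc b * c * b⁻¹ = b * (c * b⁻¹) := by group
              _ = b * (b⁻¹ * c) := by rw [c2']
              _ = c := by group]
      _ = a * c * a⁻¹ * (a * (b * d * b⁻¹) * a⁻¹) := by group
      _ = _ := by
          have : a * (b * d * b⁻¹) * a⁻¹ = b * d * b⁻¹ := by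
            have h5 : b⁻¹ * a⁻¹ = a⁻¹ * b⁻¹ := by
              have := c3'
              calc b⁻¹ * a⁻¹ = (a * b)⁻¹ := by group
                _ = (b * a)⁻¹ := by rw [c3]
                _ = _ := by group
            calc a * (b * d * b⁻¹) * a⁻¹ = a * b * (d * (b⁻¹ * a⁻¹)) := by group
              _ = a * b * (d * (a⁻¹ * b⁻¹)) := by rw [h5]
              _ = a * b * ((d * a⁻¹) * b⁻¹) := by group
              _ = a * b * ((a⁻¹ * d) * b⁻¹) := by rw [c1']
              _ = (a * b * a⁻¹) * d * b⁻¹ := by group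
              _ = _ := by
                  rw [show a * b * a⁻¹ = b by
                    calc a * b * a⁻¹ = a * (b * a⁻¹) := by group
                      _ = a * (a⁻¹ * b) := by rw [c3']
                      _ = b := by group]
          rw [this]

/-- The relations for a rescaled pair. -/
theorem rel_scale {x y : L → G} (hR : Rel x y) {c : L} (hc : c ≠ 0) :
    Rel (fun t => x (c * t)) (fun t => y (c⁻¹ * t)) := by
  have hw : ∀ t : L, t ≠ 0 → w (fun t => x (c * t)) (fun t => y (c⁻¹ * t)) t = w x y (c * t) := by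
    intro t ht
    simp only [SL2Hom.w]
    congr 3
    field_simp
  have hm1 : (-1 : L) ≠ 0 := neg_ne_zero.mpr one_ne_zero
  have hwc : w x y c * w x y (-c) = 1 := by
    rw [← SL2Hom.w_inv hR]
    group
  have hh : ∀ t : L, t ≠ 0 → h (fun t => x (c * t)) (fun t => y (c⁻¹ * t)) t = h x y t := by
    intro t ht
    rw [SL2Hom.h, hw t ht, hw _ hm1, mul_comm c t, ← SL2Hom.h_mul_w hR ht hc, mul_neg, mul_one, mul_assoc, hwc, mul_one]
  refine ⟨fun a b => ?_, fun a b => ?_, fun u => ?_, fun s t hs ht => ?_, fun s hs u => ?_⟩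
  · simp only [hR.addx, mul_add]
  · simp only [hR.addy, mul_add]
  · rw [hw _ hm1, hw _ one_ne_zero, mul_neg, mul_one]
    have h1 := Cfsg.Agent.Lib.ChevAut.Rank1.w_conj hR (neg_ne_zero.mpr hc) (c * u)
    have e1 : (w x y (-c))⁻¹ = w x y c := by rw [SL2Hom.w_inv hR, neg_neg]
    rw [e1] at h1
    rw [h1]
    congr 1
    field_simp
  · rw [hh s hs, hh t ht, hh _ (mul_ne_zero hs ht), hR.hmul s t hs ht]
  · rw [hh s hs]
    rw [hR.hconj s hs]
    congr 1
    ring

end RelLemmas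

section Rank1Form

variable {L L' G : Type*} [Field L] [Field L'] [Group G]

/-- The normal form of an automorphism on a rank one group. -/
theorem rank1_form [Finite L] {x y : L → G} (hR : Rel x y)
    (hsep : ∀ τ v : L, x τ = y v → τ = 0) (hinjx : ∀ a b, x a = x b → a = b)
    (hinjy : ∀ a b, y a = y b → a = b) (θ : G ≃* G) (hφ : ∀ t, ∃ u, θ (x t) = x u)
    (hψ : ∀ t, ∃ u, θ (y t) = y u) :
    ∃ (c : Lˣ) (σ : L ≃+* L), ∀ t, θ (x t) = x ((c : L) * σ t) ∧ θ (y t) = y (((c⁻¹ : Lˣ) : L) * σ t) := by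
  choose φ hφ using hφ
  choose ψ hψ using hψ
  have hinjφ : Function.Injective φ := by
    intro a b hab
    apply hinjx
    apply θ.injective
    rw [hφ, hφ, hab]
  have h0 : φ 0 = 0 := by
    apply hinjx
    have h1 := hφ 0
    rw [SL2Hom.x_zero hR, map_one] at h1
    rw [← h1, SL2Hom.x_zero hR]
  have h10 : φ 1 ≠ 0 := by
    intro h1
    have h2 : φ 1 = φ 0 := by rw [h1, h0]
    exact one_ne_zero (hinjφ h2)
  let c : Lˣ := Units.mk0 (φ 1) h10
  have hcne : (c : L) ≠ 0 := c.ne_zero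
  have hci : ((c⁻¹ : Lˣ) : L) = (c : L)⁻¹ := by simp
  have hR' := rel_scale hR hcne
  obtain ⟨σ, h1, h2⟩ := Cfsg.Agent.Lib.ChevAut.Rank1.exists_ringEquiv (x' := fun t => x ((c : L) * t))
    (y' := fun t => y ((c : L)⁻¹ * t)) (φ := fun t => (c : L)⁻¹ * φ t) (ψ := fun t => (c : L) * ψ t) hR hR'
    θ.toMonoidHom
    (fun t => by
      show θ (x t) = x ((c : L) * ((c : L)⁻¹ * φ t))
      rw [mul_inv_cancel_left₀ hcne]
      exact hφ t)
    (fun t => by
      show θ (y t) = y ((c : L)⁻¹ * ((c : L) * ψ t))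
      rw [inv_mul_cancel_left₀ hcne]
      exact hψ t)
    (fun τ v he => by
      have := hsep _ _ he
      exact (mul_eq_zero.mp this).resolve_left hcne)
    (fun a b he => mul_left_cancel₀ hcne (hinjx _ _ he))
    (fun a b he => mul_left_cancel₀ (inv_ne_zero hcne) (hinjy _ _ he))
    (fun a b he => hinjφ (mul_left_cancel₀ (inv_ne_zero hcne) he))
    (by
      show (c : L)⁻¹ * φ 1 = 1
      exact inv_mul_cancel₀ h10)
  refine ⟨c, σ, fun t => ⟨?_, ?_⟩⟩
  · rw [← h1 t, mul_inv_cancel_left₀ hcne]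
    exact hφ t
  · rw [hci, ← h2 t, inv_mul_cancel_left₀ hcne]
    exact hψ t

/-- The image of `w` under a normal form. -/
theorem w_of_triple {x y : L → G} {θ : G ≃* G} {c : Lˣ} {σ : L ≃+* L}
    (hT : ∀ t, θ (x t) = x ((c : L) * σ t) ∧ θ (y t) = y (((c⁻¹ : Lˣ) : L) * σ t)) (t : L) :
    θ (w x y t) = w x y ((c : L) * σ t) := by
  simp only [SL2Hom.w, map_mul, (hT _).1, (hT _).2]
  congr 3
  rw [map_neg, map_inv₀, mul_neg, Units.val_inv_eq_inv_val, mul_inv]

/-- The image of `h` under a normal form. -/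
theorem h_of_triple {x y : L → G} (hR : Rel x y) {θ : G ≃* G} {c : Lˣ} {σ : L ≃+* L}
    (hT : ∀ t, θ (x t) = x ((c : L) * σ t) ∧ θ (y t) = y (((c⁻¹ : Lˣ) : L) * σ t)) {t : L} (ht : t ≠ 0) :
    θ (h x y t) = h x y (σ t) := by
  have hs : σ t ≠ 0 := by simpa using ht
  rw [SL2Hom.h, map_mul, w_of_triple hT, w_of_triple hT, map_neg, map_one, mul_neg, mul_one, mul_comm (c : L),
    ← SL2Hom.h_mul_w hR hs c.ne_zero, mul_assoc, ← SL2Hom.w_inv hR]
  simp

/-- The link between normal forms on two rank one groups. -/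
theorem link_of_triple {x y : L → G} {x' y' : L' → G} (hR : Rel x y) {θ : G ≃* G} {c : Lˣ} {σ : L ≃+* L}
    {c' : L'ˣ} {σ' : L' ≃+* L'}
    (hT : ∀ t, θ (x t) = x ((c : L) * σ t) ∧ θ (y t) = y (((c⁻¹ : Lˣ) : L) * σ t))
    (hT' : ∀ t, θ (x' t) = x' ((c' : L') * σ' t) ∧ θ (y' t) = y' (((c'⁻¹ : L'ˣ) : L') * σ' t))
    (hinj : ∀ a b, x' a = x' b → a = b) (ι : L →+* L')
    (hact : ∀ d : L, d ≠ 0 → ∀ u, h x y d * x' u * (h x y d)⁻¹ = x' ((ι d)⁻¹ * u)) (d : L) :
    σ' (ι d) = ι (σ d) := by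
  by_cases hd : d = 0
  · simp [hd]
  have hs : σ d ≠ 0 := by simpa using hd
  have h1 := congrArg θ (hact d hd 1)
  rw [map_mul, map_mul, map_inv, h_of_triple hR hT hd, (hT' _).1, (hT' _).1, hact _ hs] at h1
  have h2 := hinj _ _ h1
  have hιd : ι d ≠ 0 := by simpa using hd
  have hιs : ι (σ d) ≠ 0 := by simpa using hs
  have hσι : σ' (ι d) ≠ 0 := by simpa using hd
  simp only [map_one, mul_one, map_inv₀] at h2
  have hc := c'.ne_zero
  field_simp at h2
  exact h2

end Rank1Form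

open Cfsg.Lie Cfsg.Agent.Lib.ChevBN.Elem Cfsg.Agent.Lib.ChevBN.Entries Cfsg.Agent.Lib.ChevBN.Table
open Cfsg.Agent.Lib.ChevBN.Collect Cfsg.Agent.Lib.ChevBN.Rel Cfsg.Agent.Lib.ChevBN.Torus
open Cfsg.Agent.Lib.ChevBN.Monomial Cfsg.Agent.Lib.ChevBN.Core Cfsg.Agent.Lib.ChevBN.Pair
open Cfsg.Agent.Lib.ChevBN.Stmts Cfsg.Agent.Lib.ChevBN.Opp Cfsg.Agent.Lib.ChevBN.Perfect
open Cfsg.Agent.Lib.ChevOrder.Chev Cfsg.Agent.Lib.ChevOrder.BNCount
open Cfsg.Agent.Lib.BNPair.Basic Cfsg.Agent.Lib.BNPair.Parabolic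

variable {D : ChevalleyDatum} {F : Type*} [Field F] {η : ℕ → ℕ → ℤ}

section Words

variable {L : Type*} [Field L] (hA : AddRel D F)

/-- The product of root elements along an orbit with parameters given by ring homomorphisms. -/
def xL (J : List ℕ) (ε : ℕ → L →+* F) (t : L) : GL D.Idx F := xJ hA J (fun i => ε i t)

/-- The product of opposite root elements along an orbit with parameters given by ring homomorphisms. -/
def yL (J : List ℕ) (ε : ℕ → L →+* F) (t : L) : GL D.Idx F := yJ hA J (fun i => ε i t)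

variable {hA}

theorem comm_yJ {g : GL D.Idx F} {J : List ℕ} (h : ∀ j ∈ J, ∀ b : F, Commute g (X hA (D.neg (D.simple j)) b))
    (t : ℕ → F) : Commute g (yJ hA J t) := by
  apply Commute.list_prod_right
  intro x hx
  obtain ⟨j, hj, rfl⟩ := List.mem_map.1 hx
  exact h j hj _

theorem rel_orbit (hR : Sys D F η) (hT : Tbl D) (hc : ∀ i < D.rank, D.cartan i (D.simple i) = 2)
    (hη : ∀ i < D.rank, η i (D.simple i) = -1) {J : List ℕ} (hl : ∀ i ∈ J, i < D.rank)
    (hnd : J.Nodup) (hO : OrthL hR.toAddRel J) (ε : ℕ → L →+* F) :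
    Rel (xL hR.toAddRel J ε) (yL hR.toAddRel J ε) := by
  induction J with
  | nil => exact rel_one
  | cons i J ih =>
    rw [List.nodup_cons] at hnd
    have hOk : ∀ j ∈ J, OkP hR.toAddRel i j := fun j hj =>
      hO i (by simp) j (List.mem_cons_of_mem _ hj) (fun e => hnd.1 (e ▸ hj))
    have h1 := rel_comp (SL2Root.rel hR hT hc hη (hT.simple_lt (hl i (by simp)))) (ε i)
    have h2 := ih (fun k hk => hl k (by simp [hk])) hnd.2 hO.tail
    have h3 := rel_mul h1 h2 (fun a b => ⟨comm_xJ (fun j hj b => ((hOk j hj) _ b).1) _,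
      comm_yJ (fun j hj b => ((hOk j hj) _ b).2.1) _, comm_xJ (fun j hj b => ((hOk j hj) _ b).2.2.1) _,
      comm_yJ (fun j hj b => ((hOk j hj) _ b).2.2.2) _⟩)
    convert h3 using 1
    · funext t
      simp [xL]
    · funext t
      simp [yL]

theorem nJ_mul_eq_torJ {J : List ℕ} (hnd : J.Nodup) (hO : OrthL hA J) (d : ℕ → F) :
    nJ hA J d * nJ hA J (fun _ => -1) = torJ hA J d := by
  induction J with
  | nil => simp
  | cons i J ih =>
    rw [List.nodup_cons] at hnd
    have hOk : ∀ j ∈ J, OkP hA i j := fun j hj =>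
      hO i (by simp) j (List.mem_cons_of_mem _ hj) (fun e => hnd.1 (e ▸ hj))
    have hc : Commute (nG hA (D.simple i) (-1)) (nJ hA J d) :=
      comm_nJ (fun j hj e => (hOk j hj).nG_nG _ e) _
    simp only [nJ_cons, torJ_cons]
    rw [← ih hnd.2 hO.tail, hG]
    calc nG hA (D.simple i) (d i) * nJ hA J d * (nG hA (D.simple i) (-1) * nJ hA J fun _ => -1) =
          nG hA (D.simple i) (d i) * (nJ hA J d * nG hA (D.simple i) (-1)) * nJ hA J (fun _ => -1) := by group
      _ = nG hA (D.simple i) (d i) * (nG hA (D.simple i) (-1) * nJ hA J d) * nJ hA J (fun _ => -1) := by rw [hc.eq]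
      _ = _ := by group

theorem w_eq_nJ {J : List ℕ} (hnd : J.Nodup) (hO : OrthL hA J) (ε : ℕ → L →+* F) {t : L} (ht : t ≠ 0) :
    w (xL hA J ε) (yL hA J ε) t = nJ hA J (fun i => ε i t) := by
  have hne : ∀ i, ε i t ≠ 0 := fun i => by simpa using ht
  have hy := yJ_eq (hA := hA) hnd hO (c := fun i => ε i (-t⁻¹)) (fun i _ => by simpa using ht)
  have e1 : (fun i => (ε i (-t⁻¹))⁻¹) = fun i => -ε i t := by
    funext i
    simp
  have e2 : (fun i => -(ε i (-t⁻¹))⁻¹) = fun i => ε i t := by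
    funext i
    simp
  rw [e1, e2] at hy
  simp only [SL2Hom.w, xL, yL]
  rw [hy]
  have h1 : xJ hA J (fun i => ε i t) * xJ hA J (fun i => -ε i t) = 1 := by
    rw [← xJ_add hnd hO]
    simp [xJ_zero]
  have h2 : xJ hA J (fun i => -ε i t) * xJ hA J (fun i => ε i t) = 1 := by
    rw [← xJ_add hnd hO]
    simp [xJ_zero]
  calc xJ hA J (fun i => ε i t) * (xJ hA J (fun i => -ε i t) * nJ hA J (fun i => ε i t) *
        xJ hA J (fun i => -ε i t)) * xJ hA J (fun i => ε i t) =
      (xJ hA J (fun i => ε i t) * xJ hA J (fun i => -ε i t)) * nJ hA J (fun i => ε i t) *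
        (xJ hA J (fun i => -ε i t) * xJ hA J (fun i => ε i t)) := by group
    _ = _ := by rw [h1, h2]; group

theorem h_eq_torJ {J : List ℕ} (hnd : J.Nodup) (hO : OrthL hA J) (ε : ℕ → L →+* F) {t : L} (ht : t ≠ 0) :
    h (xL hA J ε) (yL hA J ε) t = torJ hA J (fun i => ε i t) := by
  rw [SL2Hom.h, w_eq_nJ hnd hO ε ht, w_eq_nJ hnd hO ε (neg_ne_zero.mpr one_ne_zero), ← nJ_mul_eq_torJ hnd hO]
  simp

end Words

/-- An orbit parametrised by a field. -/
structure OrbD {hR : Sys D F η} {hT : Tbl D} {T : Tw hR.toAddRel} {Js cl : List (List ℕ)}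
    {G1 : Subgroup (GL D.Idx F)} (I : Inst hR hT T Js cl G1) (J : List ℕ) {L : Type*} [Field L]
    (ε : ℕ → L →+* F) : Prop where
  hJ : J ∈ Js
  mem_x : ∀ t, xL hR.toAddRel J ε t ∈ G1
  surj_x : ∀ g ∈ G1, g ∈ gen hR.toAddRel (psiL D J) → ∃ t, g = xL hR.toAddRel J ε t

namespace OrbD

variable {hR : Sys D F η} {hT : Tbl D} {T : Tw hR.toAddRel} {Js cl : List (List ℕ)}
  {G1 : Subgroup (GL D.Idx F)} {I : Inst hR hT T Js cl G1} {J : List ℕ} {L : Type*} [Field L]
  {ε : ℕ → L →+* F} (O : OrbD I J ε)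
  (hc : ∀ i < D.rank, D.cartan i (D.simple i) = 2) (hη : ∀ i < D.rank, η i (D.simple i) = -1)

include O

theorem hl : ∀ i ∈ J, i < D.rank := I.orth.lt J O.hJ

theorem hnd : J.Nodup := I.orth.nodup J O.hJ

theorem hO [Finite F] : OrthL hR.toAddRel J := I.orth.okP hR hT I.comm O.hJ

include hc hη in
theorem rel [Finite F] : Rel (xL hR.toAddRel J ε) (yL hR.toAddRel J ε) :=
  rel_orbit hR hT hc hη O.hl O.hnd O.hO ε

theorem w_one [Finite F] : w (xL hR.toAddRel J ε) (yL hR.toAddRel J ε) 1 = prodA hR J := by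
  rw [prodA_eq_words hR hT O.hnd O.hO]
  simp [SL2Hom.w, xL, yL]

include hc hη in
theorem conj_x [Finite F] (u : L) :
    prodA hR J * xL hR.toAddRel J ε u * (prodA hR J)⁻¹ = yL hR.toAddRel J ε (-u) := by
  have h1 := Cfsg.Agent.Lib.ChevAut.Rank1.w_conj (O.rel hc hη) (one_ne_zero (α := L)) u
  rw [O.w_one] at h1
  simpa using h1

include hc hη in
theorem mem_y [Finite F] (t : L) : yL hR.toAddRel J ε t ∈ G1 := by
  have h1 := O.conj_x hc hη (-t)
  rw [neg_neg] at h1
  rw [← h1]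
  have hn := I.orth.prodA_mem_G1 hR hT I.comm I.hw O.hJ
  exact Subgroup.mul_mem _ (Subgroup.mul_mem _ hn (O.mem_x _)) (Subgroup.inv_mem _ hn)

include hc hη in
theorem surj_y [Finite F] {g : GL D.Idx F} (hg : g ∈ G1) (hg2 : g ∈ gen hR.toAddRel (psiN D J)) :
    ∃ t, g = yL hR.toAddRel J ε t := by
  have hn := I.orth.prodA_mem_G1 hR hT I.comm I.hw O.hJ
  have h1 := I.conj_psiN_self ⟨J, O.hJ⟩ hg2
  obtain ⟨t, ht⟩ := O.surj_x _ (Subgroup.mul_mem _ (Subgroup.mul_mem _ (Subgroup.inv_mem _ hn) hg) hn) h1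
  refine ⟨-t, ?_⟩
  rw [← O.conj_x hc hη, ← ht]
  group

theorem exists_mem : ∃ i, i ∈ J := List.exists_mem_of_ne_nil _ (I.orth.ne J O.hJ)

theorem inj_x [Finite F] (a b : L) (he : xL hR.toAddRel J ε a = xL hR.toAddRel J ε b) : a = b := by
  obtain ⟨i, hi⟩ := O.exists_mem
  exact (ε i).injective (OrthDat.xJ_coord hR hT I.orth I.comm O.hJ he hi)

include hc hη in
theorem inj_y [Finite F] (a b : L) (he : yL hR.toAddRel J ε a = yL hR.toAddRel J ε b) : a = b := by
  have h1 := O.conj_x hc hη (-a)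
  have h2 := O.conj_x hc hη (-b)
  rw [neg_neg] at h1 h2
  rw [← h1, ← h2] at he
  have h3 := mul_left_cancel (mul_right_cancel he)
  exact neg_injective (O.inj_x _ _ h3)

theorem x_mem_U [Finite F] (t : L) : xL hR.toAddRel J ε t ∈ D.posUnipotent F := by
  rw [posUnipotent_eq hR.toAddRel]
  refine gen_mono _ ?_ (xJ_mem J _)
  rintro r ⟨k, hk, rfl⟩
  exact hT.simple_pos k (O.hl k hk)

theorem y_mem_V [Finite F] (t : L) : yL hR.toAddRel J ε t ∈ D.negUnipotent F := by
  rw [negUnipotent_eq hR.toAddRel]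
  refine gen_mono _ ?_ (yJ_mem J _)
  rintro r ⟨k, hk, rfl⟩
  exact hT.neg_of_pos (hT.simple_pos k (O.hl k hk))

theorem sep [Finite F] (τ v : L) (he : xL hR.toAddRel J ε τ = yL hR.toAddRel J ε v) : τ = 0 := by
  have h1 := Cfsg.Agent.Lib.ChevAut.Inner.U_inf_V hR hT (O.x_mem_U τ) (by rw [he]; exact O.y_mem_V v)
  apply O.inj_x
  rw [h1]
  simp [xL, xJ_zero]

/-- The root elements as elements of the group. -/
def xG (t : L) : ↥G1 := ⟨xL hR.toAddRel J ε t, O.mem_x t⟩

/-- The opposite root elements as elements of the group. -/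
def yG [Finite F] (t : L) : ↥G1 := ⟨yL hR.toAddRel J ε t, O.mem_y hc hη t⟩

@[simp] theorem xG_coe (t : L) : ((O.xG t : ↥G1) : GL D.Idx F) = xL hR.toAddRel J ε t := rfl
@[simp] theorem yG_coe [Finite F] (t : L) : ((O.yG hc hη t : ↥G1) : GL D.Idx F) = yL hR.toAddRel J ε t := rfl

include hc hη in
theorem relG [Finite F] : Rel (O.xG : L → ↥G1) (O.yG hc hη) :=
  Cfsg.Agent.Lib.ChevAut.rel_of_injective G1.subtype (Subgroup.subtype_injective _) (fun _ => rfl) (fun _ => rfl)
    (O.rel hc hη)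

/-- An automorphism preserving the root groups of the orbit has a normal form. -/
theorem triple [Finite F] [Finite L] (θ : ↥G1 ≃* ↥G1)
    (hp : ∀ g : ↥G1, (g : GL D.Idx F) ∈ gen hR.toAddRel (psiL D J) →
      ((θ g : ↥G1) : GL D.Idx F) ∈ gen hR.toAddRel (psiL D J))
    (hn : ∀ g : ↥G1, (g : GL D.Idx F) ∈ gen hR.toAddRel (psiN D J) →
      ((θ g : ↥G1) : GL D.Idx F) ∈ gen hR.toAddRel (psiN D J)) :
    ∃ (c : Lˣ) (σ : L ≃+* L), ∀ t, θ (O.xG t) = O.xG ((c : L) * σ t) ∧
      θ (O.yG hc hη t) = O.yG hc hη (((c⁻¹ : Lˣ) : L) * σ t) := by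
  refine rank1_form (O.relG hc hη) (fun τ v he => O.sep τ v (congrArg Subtype.val he))
    (fun a b he => O.inj_x a b (congrArg Subtype.val he))
    (fun a b he => O.inj_y hc hη a b (congrArg Subtype.val he)) θ (fun t => ?_) (fun t => ?_)
  · obtain ⟨u, hu⟩ := O.surj_x _ (θ (O.xG t)).2 (hp _ (xJ_mem J _))
    exact ⟨u, Subtype.ext hu⟩
  · obtain ⟨u, hu⟩ := O.surj_y hc hη (θ (O.yG hc hη t)).2 (hn _ (yJ_mem J _))
    exact ⟨u, Subtype.ext hu⟩

end OrbD

end Cfsg.Agent.Lib.Twisted
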