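import Cfsg.Agent.Lib.Twisted.AutCount
import Cfsg.Agent.Lib.Twisted.D4Order
import Cfsg.Agent.Lib.Twisted.D4Simp
import Cfsg.Agent.Lib.ChevAut.FieldCard
import Cfsg.Agent.Lib.Chevalley.AllEta
import Cfsg.Agent.Lib.Chevalley.CharDiagCk

/-!
# The outer automorphism group of `³D₄(q)`
-/

set_option autoImplicit false
set_option maxRecDepth 1000000

namespace Cfsg.Agent.Lib.Twisted.D4

open Cfsg.Lie Cfsg.Agent.Lib.Chevalley.Reflect
open Cfsg.Agent.Lib.Chevalley.Tbl.D4 (cols colOK sys comm nform_check)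
open Cfsg.Agent.Lib.ChevBN.Elem Cfsg.Agent.Lib.ChevBN.Table Cfsg.Agent.Lib.ChevBN.Opp
open Cfsg.Agent.Lib.ChevBN.FastData (tbl_chevD4)
open Cfsg.Agent.Lib.Chevalley

universe u

variable {K : Type u} [Field K]

theorem star_chk : (∀ J ∈ Js, ∀ i ∈ J, ∃ j ∈ J, w0.flatten.foldr chevD4.reflectRoot (chevD4.neg (chevD4.simple i)) = chevD4.simple j) ∧
    (∀ J ∈ Js, ∀ j ∈ J, ∃ i ∈ J, w0.flatten.foldr chevD4.reflectRoot (chevD4.neg (chevD4.simple i)) = chevD4.simple j) := by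
  decide +kernel

theorem starW : StarW chevD4 Js w0 :=
  ⟨w0_chk.1, fun r hr => w0_chk.2 r (mem_posRoots hr), star_chk.1, star_chk.2⟩

theorem hc_D4 : ∀ i < chevD4.rank, chevD4.cartan i (chevD4.simple i) = 2 := by decide +kernel

theorem hη_D4 : ∀ i < chevD4.rank, Cfsg.Agent.Lib.Chevalley.SysOf.etaOf Cfsg.Agent.Lib.Chevalley.Tbl.D4.wT i (chevD4.simple i) = -1 :=
  fun i hi => NForm.eta_simple_of_check _ nform_check hi

/-- The coordinates on the long orbit. -/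
noncomputable def e3 (φ : K →+* K) : ℕ → K →+* K := fun i =>
  if i = 0 then RingHom.id K else if i = 2 then φ else φ.comp φ

section
variable [Fintype K] {q : ℕ} {φ : K →+* K} {T : Tw (sys (F := K)).toAddRel}
  (hφ : ∀ t, φ t = t ^ q) (hφ3 : ∀ t, φ (φ (φ t)) = t) (hρ : T.ρ = ρ0)
  (hτ : ∀ r t, T.τ r t = ((ε0 r : ℤ) : K) * φ t)
  (I : Inst sys tbl_chevD4 T Js cl (twistedD4 K q))

set_option quotPrecheck false in
/-- The root elements. -/
local notation "Xr" => X (sys (F := _)).toAddRel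

include hφ hρ hτ in
theorem orb1 : OrbD I [1] (fun _ => (RingHom.id K).comp (fixF φ).subtype) where
  hJ := by decide
  mem_x := by
    intro t
    rw [xL, xJ1]
    exact X14_mem hφ t.2
  surj_x := by
    intro g hg hg2
    obtain ⟨t, ht, e⟩ := form1 hρ hτ hφ ⟨hg2, I.fix hg⟩
    refine ⟨⟨t, ht⟩, ?_⟩
    rw [xL, xJ1, ← e]
    rfl

theorem x3_eq (t : K) : xL (sys (F := K)).toAddRel [0, 2, 3] (fun i => (e3 φ i).comp (⊤ : Subfield K).subtype) ⟨t, trivial⟩ =
    w3 φ 18 13 12 t := by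
  rw [w3_xJ, xL]
  refine xJ_congr fun i hi => ?_
  simp only [List.mem_cons, List.not_mem_nil, or_false] at hi
  rcases hi with rfl | rfl | rfl <;> simp [e3]

theorem y3_eq (t : K) : yL (sys (F := K)).toAddRel [0, 2, 3] (fun i => (e3 φ i).comp (⊤ : Subfield K).subtype) ⟨t, trivial⟩ =
    w3 φ 5 10 11 t := by
  rw [w3_yJ, yL]
  refine yJ_congr fun i hi => ?_
  simp only [List.mem_cons, List.not_mem_nil, or_false] at hi
  rcases hi with rfl | rfl | rfl <;> simp [e3]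

include hφ hρ hτ in
theorem orb3 : OrbD I [0, 2, 3] (fun i => (e3 φ i).comp (⊤ : Subfield K).subtype) where
  hJ := by decide
  mem_x := by
    rintro ⟨t, -⟩
    rw [x3_eq]
    exact w3p_mem hφ t
  surj_x := by
    intro g hg hg2
    obtain ⟨t, e⟩ := form3 hρ hτ hφ ⟨hg2, I.fix hg⟩
    refine ⟨⟨t, trivial⟩, ?_⟩
    rw [x3_eq, e]

include hφ hρ hτ I in
/-- The family of orbits. -/
noncomputable def fam : OFam I (Fin 2) where
  S := ![fixF φ, ⊤]
  J := ![[1], [0, 2, 3]]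
  e := ![fun _ => RingHom.id K, e3 φ]
  orb := by
    intro a
    fin_cases a
    · exact orb1 hφ hρ hτ I
    · exact orb3 hφ hρ hτ I
  cover := by
    intro J hJ
    simp only [Js, List.mem_cons, List.not_mem_nil, or_false] at hJ
    rcases hJ with rfl | rfl
    · exact ⟨0, rfl⟩
    · exact ⟨1, rfl⟩
  J_inj := by decide
  comm_e := by
    intro a i σ t
    fin_cases a
    · rfl
    · show e3 φ i (σ t) = σ (e3 φ i t)
      unfold e3
      split_ifs
      · rfl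
      · exact frob_comm hφ σ t
      · show φ (φ (σ t)) = σ (φ (φ t))
        rw [frob_comm hφ, frob_comm hφ]
  stable := by
    intro a σ t ht
    fin_cases a
    · exact frob_stable hφ σ ht
    · trivial
  top := ⟨1, fun _ => trivial⟩
  gens := by
    intro g hg
    refine (?_ : Subgroup.closure _ ≤ _) hg
    rw [Subgroup.closure_le]
    intro z hz
    apply Subgroup.subset_closure
    rcases gen_form hφ hz with ⟨t, ht, rfl | rfl⟩ | ⟨t, rfl | rfl⟩
    · refine Set.mem_iUnion.2 ⟨0, Or.inl ⟨⟨t, ht⟩, ?_⟩⟩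
      show xL (sys (F := K)).toAddRel [1] _ _ = _
      rw [xL, xJ1]
      rfl
    · refine Set.mem_iUnion.2 ⟨0, Or.inr ⟨⟨t, ht⟩, ?_⟩⟩
      show yL (sys (F := K)).toAddRel [1] _ _ = _
      rw [yL, yJ1]
      rfl
    · refine Set.mem_iUnion.2 ⟨1, Or.inl ⟨⟨t, trivial⟩, ?_⟩⟩
      exact x3_eq t
    · refine Set.mem_iUnion.2 ⟨1, Or.inr ⟨⟨t, trivial⟩, ?_⟩⟩
      exact y3_eq t

include hφ hφ3 hρ hτ in
/-- Good automorphisms preserve the root groups of the orbits. -/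
theorem hid {P : Cfsg.BNPair ↥(twistedD4 K q)} (hB : P.B = (chevD4.borelSubgroup K ⊓ twistedD4 K q).subgroupOf (twistedD4 K q))
    (hN : P.N = (chevD4.monomialSubgroup K ⊓ twistedD4 K q).subgroupOf (twistedD4 K q))
    (hS : P.S = {g : ↥(twistedD4 K q) | (g : GL chevD4.Idx K) ∈ Set.range I.fd.n}) (hq : 2 ≤ q)
    (hK : Fintype.card K = q ^ 3)
    (θ : ↥(twistedD4 K q) ≃* ↥(twistedD4 K q)) (hU : PresUT θ) (hV : PresVT θ)
    (J : {J : List ℕ // J ∈ Js}) (g : ↥(twistedD4 K q))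
    (hg : (g : GL chevD4.Idx K) ∈ gen (sys (F := K)).toAddRel (psiL chevD4 J.1)) :
    ((θ g : ↥(twistedD4 K q)) : GL chevD4.Idx K) ∈ gen (sys (F := K)).toAddRel (psiL chevD4 J.1) := by
  obtain ⟨π, hπ⟩ := I.exists_perm_pos hB hN hS starW hU hV
  let j1 : {J : List ℕ // J ∈ Js} := ⟨[1], by decide⟩
  let j3 : {J : List ℕ // J ∈ Js} := ⟨[0, 2, 3], by decide⟩
  have hcases : ∀ j : {J : List ℕ // J ∈ Js}, j = j1 ∨ j = j3 := by
    rintro ⟨J, hJ⟩
    simp only [Js, List.mem_cons, List.not_mem_nil, or_false] at hJ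
    rcases hJ with rfl | rfl
    · exact Or.inl rfl
    · exact Or.inr rfl
  have hne : j1 ≠ j3 := by
    intro h
    have := congrArg Subtype.val h
    simp [j1, j3] at this
  have hπ3 : π j3 = j3 := by
    rcases hcases (π j3) with h | h
    · exfalso
      have h1 := I.card_le_of_perm (θ := θ) (J := [0, 2, 3]) (J' := [1]) (by decide) (fun g hg => by
        have := hπ j3 g hg
        rwa [h] at this)
      rw [card3 hρ hτ hφ3 hφ, card1 hρ hτ hφ hq hK, hK] at h1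
      have h2 : q * 1 < q * q ^ 2 := Nat.mul_lt_mul_of_pos_left (by nlinarith [hq]) (by omega)
      have h3 : q ^ 3 = q * q ^ 2 := by ring
      omega
    · exact h
  have hπ1 : π j1 = j1 := by
    rcases hcases (π j1) with h | h
    · exact h
    · exfalso
      exact hne (π.injective (h.trans hπ3.symm))
  rcases hcases J with rfl | rfl
  · have := hπ j1 g hg
    rwa [hπ1] at this
  · have := hπ j3 g hg
    rwa [hπ3] at this

theorem cart_chk3 : ∀ j ∈ ([0, 2, 3] : List ℕ), chevD4.cartan 1 (chevD4.simple j) = -1 := by decide +kernel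

include hφ hφ3 hρ hτ I in
/-- The field automorphisms on the two orbits are compatible. -/
theorem hlink (θ : ↥(twistedD4 K q) ≃* ↥(twistedD4 K q)) (c : ∀ a, (↥((fam hφ hρ hτ I).S a))ˣ)
    (σ : ∀ a, ↥((fam hφ hρ hτ I).S a) ≃+* ↥((fam hφ hρ hτ I).S a))
    (ht : ∀ a t, θ (((fam hφ hρ hτ I).orb a).xG t) = ((fam hφ hρ hτ I).orb a).xG ((c a : ↥((fam hφ hρ hτ I).S a)) * σ a t) ∧
      θ (((fam hφ hρ hτ I).orb a).yG hc_D4 hη_D4 t) = ((fam hφ hρ hτ I).orb a).yG hc_D4 hη_D4 (((c a)⁻¹ : (↥((fam hφ hρ hτ I).S a))ˣ) * σ a t)) :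
    ∃ σ₀ : K ≃+* K, ∀ a, σ a = (fam hφ hρ hτ I).res a σ₀ := by
  let Fm := fam hφ hρ hτ I
  let σ₁ : ↥(Fm.S 1) ≃+* ↥(Fm.S 1) := σ 1
  let σ₀ : K ≃+* K :=
    { toFun := fun t => (σ₁ ⟨t, trivial⟩ : ↥(Fm.S 1)).1
      invFun := fun t => (σ₁.symm ⟨t, trivial⟩ : ↥(Fm.S 1)).1
      left_inv := fun t => by
        show (σ₁.symm (σ₁ ⟨t, trivial⟩)).1 = t
        simp
      right_inv := fun t => by
        show (σ₁ (σ₁.symm ⟨t, trivial⟩)).1 = t
        simp
      map_mul' := fun s t => by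
        have : ((⟨s * t, trivial⟩ : ↥(Fm.S 1))) = ⟨s, trivial⟩ * ⟨t, trivial⟩ := rfl
        show (σ₁ ⟨s * t, trivial⟩).1 = _
        rw [this, map_mul]
        rfl
      map_add' := fun s t => by
        have : ((⟨s + t, trivial⟩ : ↥(Fm.S 1))) = ⟨s, trivial⟩ + ⟨t, trivial⟩ := rfl
        show (σ₁ ⟨s + t, trivial⟩).1 = _
        rw [this, map_add]
        rfl }
  have hS0 : Fm.S 0 ≤ Fm.S 1 := fun _ _ => trivial
  have hcart : ∀ d : ↥(Fm.S 0), d ≠ 0 → ∀ j' ∈ Fm.J 1,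
      ((Fm.J 0).map fun j => (Fm.e 0 j (d : K)) ^ chevD4.cartan j (chevD4.simple j')).prod = (Fm.e 1 j' (d : K))⁻¹ := by
    intro d hd j' hj'
    have hd' : φ (d : K) = d := d.2
    have hj'' : j' ∈ ([0, 2, 3] : List ℕ) := hj'
    have h1 := cart_chk3 j' hj''
    have h2 : Fm.e 1 j' (d : K) = d := by
      show e3 φ j' (d : K) = d
      unfold e3
      split_ifs
      · rfl
      · exact hd'
      · show φ (φ (d : K)) = d
        rw [hd', hd']
    rw [h2]
    show (([1] : List ℕ).map fun j => (RingHom.id K (d : K)) ^ chevD4.cartan j (chevD4.simple j')).prod = _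
    simp only [List.map_cons, List.map_nil, List.prod_cons, List.prod_nil, mul_one, RingHom.id_apply, h1]
    simp
  refine ⟨σ₀, fun a => ?_⟩
  fin_cases a
  · ext d
    have := Fm.link hc_D4 hη_D4 (a := 0) (b := 1) hS0 hcart (θ := θ) (c := c 0) (c' := c 1) (σ := σ 0) (σ' := σ 1)
      (ht 0) (ht 1) d
    exact this.symm
  · ext d
    rfl

end

/-- The order of the field of fixed points of a Frobenius map. -/
theorem card_fixF [Fintype K] {q : ℕ} {φ : K →+* K} (hφ : ∀ t, φ t = t ^ q) (hq : 2 ≤ q)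
    (hK : Fintype.card K = q ^ 3) : Nat.card ↥(fixF φ) = q := by
  rw [← card_fixed_pow hq hK]
  refine Nat.card_congr (Equiv.subtypeEquivRight fun t => ?_)
  rw [mem_fixF, hφ]

/-- **`|Out ³D₄(q)| = 3f`**. -/
theorem card_out_main [Fintype K] (p f : ℕ) [Fact p.Prime] [CharP K p] (hK : Fintype.card K = p ^ (3 * f))
    (hf : 1 ≤ f) : Nat.card (Cfsg.Out ↥(twistedD4 K (p ^ f))) = 3 * f := by
  have hp : p.Prime := Fact.out
  obtain ⟨q, hqdef⟩ : ∃ q, q = p ^ f := ⟨_, rfl⟩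
  rw [← hqdef]
  have hq : IsPrimePow q := hqdef ▸ hp.isPrimePow.pow (by omega)
  have h2 : 2 ≤ q := hq.two_le
  have hK' : Fintype.card K = q ^ 3 := by rw [hK, hqdef, ← pow_mul, mul_comm]
  have hpq : p ∣ q := hqdef ▸ dvd_pow_self p (by omega)
  obtain ⟨φ, T, hφ, hφ3, hρ, hτ, I⟩ := main hq hK'
  obtain ⟨P, hB, hN, hS⟩ := I.exists_pair
  let Fm := fam hφ hρ hτ I
  have hnd : ∀ n, 1 ≤ n → ¬ p ∣ q ^ n - 1 := by
    intro n hn hd
    have h3 : p ∣ q ^ n := dvd_pow hpq (by omega)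
    have h4 : 1 ≤ q ^ n := Nat.one_le_pow _ _ (by omega)
    have h5 : p ∣ 1 := by
      have := (Nat.dvd_sub h3 hd)
      rwa [Nat.sub_sub_self h4] at this
    exact hp.one_lt.ne' (Nat.dvd_one.1 h5)
  have hSyl : ∃ P : Sylow p ↥(twistedD4 K q),
      (P : Subgroup ↥(twistedD4 K q)) = (chevD4.posUnipotent K).subgroupOf (twistedD4 K q) := by
    refine exists_sylow_of (m := 12 * f) (r := (q ^ 2 - 1) * (q ^ 6 - 1) * (q ^ 8 + q ^ 4 + 1)) _ ?_ ?_ ?_
    · rw [card_subgroupOf', card_U hq hK', hqdef, ← pow_mul, mul_comm]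
    · rw [card_main' hq hK', hqdef, ← pow_mul, mul_comm f 12, mul_assoc, mul_assoc, mul_assoc]
    · intro hd
      rcases (hp.dvd_mul).1 hd with hd | hd
      · rcases (hp.dvd_mul).1 hd with hd | hd
        · exact hnd 2 (by omega) hd
        · exact hnd 6 (by omega) hd
      · have h3 : p ∣ q ^ 8 + q ^ 4 := Dvd.dvd.add (dvd_pow hpq (by omega)) (dvd_pow hpq (by omega))
        have h5 : p ∣ 1 := (Nat.dvd_add_right h3).1 hd
        exact hp.one_lt.ne' (Nat.dvd_one.1 h5)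
  have hout := Fm.card_out hc_D4 hη_D4 hB hN hS hSyl (by simp) CharDiag.ck_D4 starW
    (hid hφ hφ3 hρ hτ I hB hN hS h2 hK') (hlink hφ hφ3 hρ hτ I)
  rw [hout, Cfsg.Agent.Lib.ChevAut.FieldCard.card_aut p (3 * f) hK]
  have hquot := Fm.card_quot hc_D4 hη_D4
  rw [card_H1 hq hK', Nat.card_pi, Fin.prod_univ_two] at hquot
  have h0 : Nat.card (↥(Fm.S 0))ˣ = q - 1 := by
    rw [Nat.card_units]
    show Nat.card ↥(fixF φ) - 1 = _
    rw [card_fixF hφ h2 hK']
  have h1 : Nat.card (↥(Fm.S 1))ˣ = q ^ 3 - 1 := by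
    rw [Nat.card_units, ← hK', ← Nat.card_eq_fintype_card]
    congr 1
    exact Nat.card_congr (Equiv.subtypeUnivEquiv fun _ => trivial)
  rw [h0, h1] at hquot
  have hfac : q ^ 3 - 1 = (q - 1) * (q ^ 2 + q + 1) := by
    obtain ⟨r, rfl⟩ : ∃ r, q = r + 1 := ⟨q - 1, by omega⟩
    simp only [Nat.add_sub_cancel]
    have : (r + 1) ^ 3 = r * ((r + 1) ^ 2 + (r + 1) + 1) + 1 := by ring
    omega
  have hq1 : 0 < q - 1 := by omega
  have hone : Nat.card ((∀ a, (↥(Fm.S a))ˣ) ⧸ Fm.R) = 1 := by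
    have hX : 0 < (q - 1) ^ 2 * (q ^ 2 + q + 1) := by positivity
    refine Nat.eq_of_mul_eq_mul_right hX ?_
    rw [hquot, hfac]
    ring
  rw [hone, one_mul]

end Cfsg.Agent.Lib.Twisted.D4
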