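import Cfsg.Agent.Lib.Twisted.AutCount
import Cfsg.Agent.Lib.Twisted.E6Order
import Cfsg.Agent.Lib.Twisted.E6Simp
import Cfsg.Agent.Lib.Twisted.E6Torus
import Cfsg.Agent.Lib.ChevAut.FieldCard
import Cfsg.Agent.Lib.Chevalley.AllEta
import Cfsg.Agent.Lib.Chevalley.CharDiagCk

/-!
# The outer automorphism group of `²E₆(q)`
-/

set_option autoImplicit false
set_option maxRecDepth 1000000
set_option linter.unusedSectionVars false

namespace Cfsg.Agent.Lib.Twisted.E6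

open Cfsg.Lie Cfsg.Agent.Lib.Chevalley.Reflect
open Cfsg.Agent.Lib.Chevalley.Tbl.E6 (cols colOK sys comm nform_check)
open Cfsg.Agent.Lib.ChevBN.Elem Cfsg.Agent.Lib.ChevBN.Table Cfsg.Agent.Lib.ChevBN.Opp
open Cfsg.Agent.Lib.ChevBN.FastData (tbl_chevE6)
open Cfsg.Agent.Lib.Chevalley

universe u

variable {K : Type u} [Field K]

theorem star_chk : (∀ J ∈ Js, ∀ i ∈ J, ∃ j ∈ J, w0.flatten.foldr chevE6.reflectRoot (chevE6.neg (chevE6.simple i)) = chevE6.simple j) ∧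
    (∀ J ∈ Js, ∀ j ∈ J, ∃ i ∈ J, w0.flatten.foldr chevE6.reflectRoot (chevE6.neg (chevE6.simple i)) = chevE6.simple j) := by
  decide +kernel

theorem starW : StarW chevE6 Js w0 :=
  ⟨w0_chk.1, fun r hr => w0_chk.2 r (mem_posRoots hr), star_chk.1, star_chk.2⟩

theorem hc_E6 : ∀ i < chevE6.rank, chevE6.cartan i (chevE6.simple i) = 2 := by decide +kernel

theorem hη_E6 : ∀ i < chevE6.rank, Cfsg.Agent.Lib.Chevalley.SysOf.etaOf Cfsg.Agent.Lib.Chevalley.Tbl.E6.wT i (chevE6.simple i) = -1 :=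
  fun i hi => NForm.eta_simple_of_check _ nform_check hi

/-- The coordinates on a long orbit. -/
noncomputable def e2 (i₀ : ℕ) (φ : K →+* K) : ℕ → K →+* K := fun i =>
  if i = i₀ then RingHom.id K else φ

section
variable [Fintype K] {q : ℕ} {φ : K →+* K} {T : Tw (sys (F := K)).toAddRel}
  (hφ : ∀ t, φ t = t ^ q) (hφ2 : ∀ t, φ (φ t) = t) (hρ : T.ρ = ρ0)
  (hτ : ∀ r t, T.τ r t = ((ε0 r : ℤ) : K) * φ t)
  (I : Inst sys tbl_chevE6 T Js cl (twistedE6 K q))

set_option quotPrecheck false in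
/-- The root elements. -/
local notation "Xr" => X (sys (F := _)).toAddRel

include hφ hρ hτ in
theorem orb1 {i a : ℕ} (hJ : [i] ∈ Js) (e : chevE6.simple i = a) (h1 : ρ0 a = a) (h2 : ε0 a = 1)
    (hm : a ∈ [e6p2, e6m2, e6p4, e6m4]) :
    OrbD I [i] (fun _ => (RingHom.id K).comp (fixF φ).subtype) where
  hJ := hJ
  mem_x := by
    intro t
    rw [xL, xJ_1 e]
    exact X_single_mem hφ hm t.2
  surj_x := by
    intro g hg hg2
    obtain ⟨t, ht, e'⟩ := form1 hρ hτ hJ e h1 h2 ⟨hg2, I.fix hg⟩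
    refine ⟨⟨t, ht⟩, ?_⟩
    rw [xL, xJ_1 e, ← e']
    rfl

theorem x2_eq {i j a b : ℕ} (hij : j ≠ i) (e : chevE6.simple i = a) (e' : chevE6.simple j = b) (t : K) :
    xL (sys (F := K)).toAddRel [i, j] (fun k => (e2 i φ k).comp (⊤ : Subfield K).subtype) ⟨t, trivial⟩ =
      w2 φ a b t := by
  rw [w2_xJ hij e e', xL]
  refine xJ_congr fun k hk => ?_
  simp only [List.mem_cons, List.not_mem_nil, or_false] at hk
  rcases hk with rfl | rfl
  · simp [e2]
  · simp [e2, hij]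

theorem y2_eq {i j a b a' b' : ℕ} (hij : j ≠ i) (e : chevE6.simple i = a) (e' : chevE6.simple j = b)
    (e2' : chevE6.neg a = a') (e3 : chevE6.neg b = b') (t : K) :
    yL (sys (F := K)).toAddRel [i, j] (fun k => (e2 i φ k).comp (⊤ : Subfield K).subtype) ⟨t, trivial⟩ =
      w2 φ a' b' t := by
  rw [w2_yJ hij e e' e2' e3, yL]
  refine yJ_congr fun k hk => ?_
  simp only [List.mem_cons, List.not_mem_nil, or_false] at hk
  rcases hk with rfl | rfl
  · simp [e2]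
  · simp [e2, hij]

include hφ hρ hτ in
theorem orb2 {i j a b : ℕ} (hJ : [i, j] ∈ Js) (hij : j ≠ i) (e : chevE6.simple i = a) (e' : chevE6.simple j = b)
    (h1 : ρ0 a = b) (h2 : ε0 a = 1) (hm : (a, b) ∈ [(e6p1, e6p6), (e6m1, e6m6), (e6p3, e6p5), (e6m3, e6m5)]) :
    OrbD I [i, j] (fun k => (e2 i φ k).comp (⊤ : Subfield K).subtype) where
  hJ := hJ
  mem_x := by
    rintro ⟨t, -⟩
    rw [x2_eq hij e e']
    exact w2_mem hφ hm t
  surj_x := by
    intro g hg hg2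
    obtain ⟨t, e''⟩ := form2 hρ hτ hJ (by simpa using hij.symm) e e' h1 h2 ⟨hg2, I.fix hg⟩
    refine ⟨⟨t, trivial⟩, ?_⟩
    rw [x2_eq hij e e', e'']

include hφ hρ hτ I in
/-- The family of orbits. -/
noncomputable def fam : OFam I (Fin 4) where
  S := ![fixF φ, fixF φ, ⊤, ⊤]
  J := ![[1], [3], [2, 4], [0, 5]]
  e := ![fun _ => RingHom.id K, fun _ => RingHom.id K, e2 2 φ, e2 0 φ]
  orb := by
    obtain ⟨e0, e1, e2, e3, e4, e5⟩ := e_s
    intro a
    fin_cases a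
    · exact orb1 hφ hρ hτ I (by decide) e1 (by decide +kernel) (by decide +kernel) (by simp [e6p2])
    · exact orb1 hφ hρ hτ I (by decide) e3 (by decide +kernel) (by decide +kernel) (by simp [e6p4])
    · exact orb2 hφ hρ hτ I (by decide) (by decide) e2 e4 (by decide +kernel) (by decide +kernel) (by simp [e6p3, e6p5])
    · exact orb2 hφ hρ hτ I (by decide) (by decide) e0 e5 (by decide +kernel) (by decide +kernel) (by simp [e6p1, e6p6])
  cover := by
    intro J hJ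
    simp only [Js, List.mem_cons, List.not_mem_nil, or_false] at hJ
    rcases hJ with rfl | rfl | rfl | rfl
    · exact ⟨0, rfl⟩
    · exact ⟨1, rfl⟩
    · exact ⟨3, rfl⟩
    · exact ⟨2, rfl⟩
  J_inj := by decide
  comm_e := by
    intro a i σ t
    have hc : ∀ i₀, e2 i₀ φ i (σ t) = σ (e2 i₀ φ i t) := by
      intro i₀
      unfold e2
      split_ifs
      · rfl
      · exact frob_comm hφ σ t
    fin_cases a
    · rfl
    · rfl
    · exact hc 2
    · exact hc 0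
  stable := by
    intro a σ t ht
    fin_cases a
    · exact frob_stable hφ σ ht
    · exact frob_stable hφ σ ht
    · trivial
    · trivial
  top := ⟨2, fun _ => trivial⟩
  gens := by
    obtain ⟨e0, e1, e2, e3, e4, e5⟩ := e_s
    obtain ⟨n0, n1, n2, n3, n4, n5⟩ := e_n
    intro g hg
    refine (?_ : Subgroup.closure _ ≤ _) hg
    rw [Subgroup.closure_le]
    intro z hz
    apply Subgroup.subset_closure
    rcases gen_form hφ hz with ⟨t, ht, rfl | rfl | rfl | rfl⟩ | ⟨t, rfl | rfl | rfl | rfl⟩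
    · refine Set.mem_iUnion.2 ⟨0, Or.inl ⟨⟨t, ht⟩, ?_⟩⟩
      show xL (sys (F := K)).toAddRel [1] _ _ = _
      rw [xL, xJ_1 e1]
      rfl
    · refine Set.mem_iUnion.2 ⟨0, Or.inr ⟨⟨t, ht⟩, ?_⟩⟩
      show yL (sys (F := K)).toAddRel [1] _ _ = _
      rw [yL, yJ_1 e1 n1]
      rfl
    · refine Set.mem_iUnion.2 ⟨1, Or.inl ⟨⟨t, ht⟩, ?_⟩⟩
      show xL (sys (F := K)).toAddRel [3] _ _ = _
      rw [xL, xJ_1 e3]
      rfl
    · refine Set.mem_iUnion.2 ⟨1, Or.inr ⟨⟨t, ht⟩, ?_⟩⟩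
      show yL (sys (F := K)).toAddRel [3] _ _ = _
      rw [yL, yJ_1 e3 n3]
      rfl
    · refine Set.mem_iUnion.2 ⟨3, Or.inl ⟨⟨t, trivial⟩, ?_⟩⟩
      exact x2_eq (by decide) e0 e5 t
    · refine Set.mem_iUnion.2 ⟨3, Or.inr ⟨⟨t, trivial⟩, ?_⟩⟩
      exact y2_eq (by decide) e0 e5 n0 n5 t
    · refine Set.mem_iUnion.2 ⟨2, Or.inl ⟨⟨t, trivial⟩, ?_⟩⟩
      exact x2_eq (by decide) e2 e4 t
    · refine Set.mem_iUnion.2 ⟨2, Or.inr ⟨⟨t, trivial⟩, ?_⟩⟩
      exact y2_eq (by decide) e2 e4 n2 n4 t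


omit [Fintype K] in
theorem g_aux {G : Type*} [Group G] {y b d x40 x43 x43' x44 : G} (hc : y * (b * d) = (b * d) * y)
    (h1 : b * y = y * b * x43) (h2 : d * y = y * d * x40) (h3 : x43' * d = d * x43' * x44) (h4 : x43 * x43' = 1) :
    x40 = x43' * x44 := by
  have e1 : y * b * d = y * b * (x43 * d * x40) := by
    calc y * b * d = y * (b * d) := by group
      _ = b * (d * y) := by rw [hc]; group
      _ = (b * y) * d * x40 := by rw [h2]; group
      _ = y * b * (x43 * d * x40) := by rw [h1]; group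
  have e2 : d = x43 * d * x40 := mul_left_cancel e1
  have e3 : x43' = x43⁻¹ := (inv_eq_of_mul_eq_one_right h4).symm
  subst e3
  have e4 : x40 = d⁻¹ * x43⁻¹ * d := by
    have : x43⁻¹ * d = d * x40 := by
      calc x43⁻¹ * d = x43⁻¹ * (x43 * d * x40) := by rw [← e2]
        _ = d * x40 := by group
    calc x40 = d⁻¹ * (d * x40) := by group
      _ = d⁻¹ * x43⁻¹ * d := by rw [← this]; group
  rw [e4, mul_assoc, h3]
  group

omit [Fintype K] in
/-- Two orbits which are adjacent in the diagram do not commute. -/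
theorem not_comm (φ : K →+* K) : ¬ Commute (Xr 39 (1 : K)) (w2 φ 42 37 1) := by
  intro hc
  have c1 : chevE6.commTerms 39 42 = [(43, 1, 1, 1)] := by decide +kernel
  have c2 : chevE6.commTerms 39 37 = [(40, -1, 1, 1)] := by decide +kernel
  have c3 : chevE6.commTerms 37 43 = [(44, 1, 1, 1)] := by decide +kernel
  have p39 : chevE6.IsPosRoot 39 := by decide +kernel
  have p42 : chevE6.IsPosRoot 42 := by decide +kernel
  have p37 : chevE6.IsPosRoot 37 := by decide +kernel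
  have p43 : chevE6.IsPosRoot 43 := by decide +kernel
  have p44 : chevE6.IsPosRoot 44 := by decide +kernel
  have p40 : chevE6.IsPosRoot 40 := by decide +kernel
  have h1 := Cfsg.Agent.Lib.ChevBN.Rel.commPos sys 39 42 p39 p42 (by decide) (1 : K) (1 : K)
  have h2 := Cfsg.Agent.Lib.ChevBN.Rel.commPos sys 39 37 p39 p37 (by decide) (1 : K) (1 : K)
  have h3 := Cfsg.Agent.Lib.ChevBN.Rel.commPos sys 37 43 p37 p43 (by decide) (1 : K) (1 : K)
  have w1 : chevE6.commWord K 39 42 1 1 = [(43, -1)] := by simp [ChevalleyDatum.commWord, c1]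
  have w2' : chevE6.commWord K 39 37 1 1 = [(40, 1)] := by simp [ChevalleyDatum.commWord, c2]
  have w3 : chevE6.commWord K 37 43 1 1 = [(44, -1)] := by simp [ChevalleyDatum.commWord, c3]
  rw [w1] at h1
  rw [w2'] at h2
  rw [w3] at h3
  simp only [W_cons, W_nil, mul_one] at h1 h2 h3
  have hc' : Xr 39 (1 : K) * (Xr 42 (1 : K) * Xr 37 (1 : K)) = (Xr 42 (1 : K) * Xr 37 (1 : K)) * Xr 39 (1 : K) := by
    have := hc.eq
    simpa [w2] using this
  have h4 : Xr 43 (-1 : K) * Xr 43 (1 : K) = 1 := by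
    rw [X_mul]
    simp
  have h5 := g_aux hc' h1 h2 h3 h4
  have h6 : Xr 40 (1 : K) ∈ gen (sys (F := K)).toAddRel {s | chevE6.IsPosRoot s ∧ 40 < s} := by
    rw [h5]
    exact Subgroup.mul_mem _ (X_mem_gen _ (show (43 : ℕ) ∈ {s | chevE6.IsPosRoot s ∧ 40 < s} from ⟨p43, by decide⟩) _)
      (X_mem_gen _ (show (44 : ℕ) ∈ {s | chevE6.IsPosRoot s ∧ 40 < s} from ⟨p44, by decide⟩) _)
  exact one_ne_zero (Cfsg.Agent.Lib.ChevBN.Collect.eq_zero_of_X_mem tbl_chevE6 p40 h6)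

omit [Fintype K] in
/-- Subgroups generated by commuting root elements commute. -/
theorem comm_gen {Ψ Ψ' : Set ℕ} (h : ∀ r ∈ Ψ, ∀ s ∈ Ψ', ∀ a b : K, Commute (Xr r a) (Xr s b)) :
    ∀ x ∈ gen (sys (F := K)).toAddRel Ψ, ∀ y ∈ gen (sys (F := K)).toAddRel Ψ', Commute x y := by
  have h1 : ∀ r ∈ Ψ, ∀ a : K, gen (sys (F := K)).toAddRel Ψ' ≤ Subgroup.centralizer {Xr r a} := by
    intro r hr a
    refine gen_le _ fun s hs b => ?_
    rw [Subgroup.mem_centralizer_iff]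
    rintro _ rfl
    exact h r hr s hs a b
  intro x hx y hy
  have h2 : gen (sys (F := K)).toAddRel Ψ ≤ Subgroup.centralizer {y} := by
    refine gen_le _ fun r hr a => ?_
    rw [Subgroup.mem_centralizer_iff]
    rintro _ rfl
    have := h1 r hr a hy
    rw [Subgroup.mem_centralizer_iff] at this
    exact (this _ rfl).symm
  have := h2 hx
  rw [Subgroup.mem_centralizer_iff] at this
  exact (this _ rfl).symm

omit [Fintype K] in
theorem comm_e (a b : ℕ) (ha : a < chevE6.nroots) (hb : b < chevE6.nroots) (h1 : b ≠ a) (h2 : b ≠ chevE6.neg a)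
    (h3 : chevE6.commTerms a b = []) (x y : K) : Commute (Xr a x) (Xr b y) :=
  comm_p ha hb h1 h2 h3 x y

omit [Fintype K] in
theorem comm12 : ∀ x ∈ gen (sys (F := K)).toAddRel (psiL chevE6 [1]),
    ∀ y ∈ gen (sys (F := K)).toAddRel (psiL chevE6 [2, 4]), Commute x y := by
  obtain ⟨e0, e1, e2, e3, e4, e5⟩ := e_s
  refine comm_gen ?_
  rintro r ⟨i, hi, rfl⟩ s ⟨j, hj, rfl⟩ a b
  simp only [List.mem_cons, List.not_mem_nil, or_false] at hi hj
  subst hi
  rcases hj with rfl | rfl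
  · rw [e1, e2]
    exact comm_e 46 42 (by decide +kernel) (by decide +kernel) (by decide) (by decide +kernel) (by decide +kernel) a b
  · rw [e1, e4]
    exact comm_e 46 37 (by decide +kernel) (by decide +kernel) (by decide) (by decide +kernel) (by decide +kernel) a b

omit [Fintype K] in
theorem comm15 : ∀ x ∈ gen (sys (F := K)).toAddRel (psiL chevE6 [1]),
    ∀ y ∈ gen (sys (F := K)).toAddRel (psiL chevE6 [0, 5]), Commute x y := by
  obtain ⟨e0, e1, e2, e3, e4, e5⟩ := e_s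
  refine comm_gen ?_
  rintro r ⟨i, hi, rfl⟩ s ⟨j, hj, rfl⟩ a b
  simp only [List.mem_cons, List.not_mem_nil, or_false] at hi hj
  subst hi
  rcases hj with rfl | rfl
  · rw [e1, e0]
    exact comm_e 46 56 (by decide +kernel) (by decide +kernel) (by decide) (by decide +kernel) (by decide +kernel) a b
  · rw [e1, e5]
    exact comm_e 46 36 (by decide +kernel) (by decide +kernel) (by decide) (by decide +kernel) (by decide +kernel) a b

omit [Fintype K] in
theorem comm35 : ∀ x ∈ gen (sys (F := K)).toAddRel (psiL chevE6 [3]),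
    ∀ y ∈ gen (sys (F := K)).toAddRel (psiL chevE6 [0, 5]), Commute x y := by
  obtain ⟨e0, e1, e2, e3, e4, e5⟩ := e_s
  refine comm_gen ?_
  rintro r ⟨i, hi, rfl⟩ s ⟨j, hj, rfl⟩ a b
  simp only [List.mem_cons, List.not_mem_nil, or_false] at hi hj
  subst hi
  rcases hj with rfl | rfl
  · rw [e3, e0]
    exact comm_e 39 56 (by decide +kernel) (by decide +kernel) (by decide) (by decide +kernel) (by decide +kernel) a b
  · rw [e3, e5]
    exact comm_e 39 36 (by decide +kernel) (by decide +kernel) (by decide) (by decide +kernel) (by decide +kernel) a b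

omit [Fintype K] in
/-- The permutations of four points allowed by the diagram. -/
theorem perm4 {α : Type*} (a b c d : α) (hcases : ∀ x, x = a ∨ x = b ∨ x = c ∨ x = d) (hab : a ≠ b) (hac : a ≠ c)
    (had : a ≠ d) (hbc : b ≠ c) (hbd : b ≠ d) (hcd : c ≠ d) (π : Equiv.Perm α) (hc : π c = c ∨ π c = d)
    (hd : π d = c ∨ π d = d) (h1 : ¬ (π a = b ∧ π d = d)) (h2 : ¬ (π a = b ∧ π c = d))
    (h3 : ¬ (π b = b ∧ π c = d)) : π a = a ∧ π b = b ∧ π c = c ∧ π d = d := by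
  have inj : ∀ x y, π x = π y → x = y := fun x y h => π.injective h
  rcases hcases (π a) with ha | ha | ha | ha <;> rcases hcases (π b) with hb | hb | hb | hb <;>
    rcases hc with hc' | hc' <;> rcases hd with hd' | hd' <;>
    first
    | exact ⟨ha, hb, hc', hd'⟩
    | exact absurd (inj _ _ (ha.trans hb.symm)) hab
    | exact absurd (inj _ _ (ha.trans hc'.symm)) hac
    | exact absurd (inj _ _ (ha.trans hd'.symm)) had
    | exact absurd (inj _ _ (hb.trans hc'.symm)) hbc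
    | exact absurd (inj _ _ (hb.trans hd'.symm)) hbd
    | exact absurd (inj _ _ (hc'.trans hd'.symm)) hcd
    | exact (h1 ⟨ha, hd'⟩).elim
    | exact (h2 ⟨ha, hc'⟩).elim
    | exact (h3 ⟨hb, hc'⟩).elim

include I in
/-- A permutation of root groups is onto when the orders agree. -/
theorem surj_of_perm {θ : ↥(twistedE6 K q) ≃* ↥(twistedE6 K q)} {J J' : List ℕ} (hJ : J ∈ Js)
    (h : ∀ g : ↥(twistedE6 K q), (g : GL chevE6.Idx K) ∈ gen (sys (F := K)).toAddRel (psiL chevE6 J) →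
      ((θ g : ↥(twistedE6 K q)) : GL chevE6.Idx K) ∈ gen (sys (F := K)).toAddRel (psiL chevE6 J'))
    (hc : Nat.card ↥(gen (sys (F := K)).toAddRel (psiL chevE6 J') ⊓ T.Fx) ≤ Nat.card ↥(gen (sys (F := K)).toAddRel (psiL chevE6 J) ⊓ T.Fx))
    (g' : ↥(twistedE6 K q)) (hg' : (g' : GL chevE6.Idx K) ∈ gen (sys (F := K)).toAddRel (psiL chevE6 J')) :
    ∃ g : ↥(twistedE6 K q), (g : GL chevE6.Idx K) ∈ gen (sys (F := K)).toAddRel (psiL chevE6 J) ∧ θ g = g' := by
  have hG : ∀ x ∈ gen (sys (F := K)).toAddRel (psiL chevE6 J) ⊓ T.Fx, x ∈ twistedE6 K q := fun x hx => I.fund J hJ hx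
  let f : ↥(gen (sys (F := K)).toAddRel (psiL chevE6 J) ⊓ T.Fx) → ↥(gen (sys (F := K)).toAddRel (psiL chevE6 J') ⊓ T.Fx) := fun x =>
    ⟨(θ ⟨x.1, hG x.1 x.2⟩ : ↥(twistedE6 K q)), h _ x.2.1, I.fix (θ ⟨x.1, hG x.1 x.2⟩).2⟩
  have hf : Function.Injective f := by
    intro a b he
    have h0 : ((θ ⟨a.1, hG a.1 a.2⟩ : ↥(twistedE6 K q)) : GL chevE6.Idx K) = ((θ ⟨b.1, hG b.1 b.2⟩ : ↥(twistedE6 K q)) : GL chevE6.Idx K) :=
      congrArg (fun z : ↥(gen (sys (F := K)).toAddRel (psiL chevE6 J') ⊓ T.Fx) => (z : GL chevE6.Idx K)) he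
    have h1 : θ ⟨a.1, hG a.1 a.2⟩ = θ ⟨b.1, hG b.1 b.2⟩ := Subtype.ext h0
    have h2 := θ.injective h1
    exact Subtype.ext (congrArg (fun z : ↥(twistedE6 K q) => (z : GL chevE6.Idx K)) h2)
  obtain ⟨a, ha⟩ := (Function.Injective.bijective_of_nat_card_le hf hc).2 ⟨g'.1, hg', I.fix g'.2⟩
  refine ⟨⟨a.1, hG a.1 a.2⟩, a.2.1, Subtype.ext ?_⟩
  exact congrArg (fun z : ↥(gen (sys (F := K)).toAddRel (psiL chevE6 J') ⊓ T.Fx) => (z : GL chevE6.Idx K)) ha

include hφ hφ2 hρ hτ in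
/-- Good automorphisms preserve the root groups of the orbits. -/
theorem hid {P : Cfsg.BNPair ↥(twistedE6 K q)} (hB : P.B = (chevE6.borelSubgroup K ⊓ twistedE6 K q).subgroupOf (twistedE6 K q))
    (hN : P.N = (chevE6.monomialSubgroup K ⊓ twistedE6 K q).subgroupOf (twistedE6 K q))
    (hS : P.S = {g : ↥(twistedE6 K q) | (g : GL chevE6.Idx K) ∈ Set.range I.fd.n}) (hq : 2 ≤ q)
    (hK : Fintype.card K = q ^ 2)
    (θ : ↥(twistedE6 K q) ≃* ↥(twistedE6 K q)) (hU : PresUT θ) (hV : PresVT θ)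
    (J : {J : List ℕ // J ∈ Js}) (g : ↥(twistedE6 K q))
    (hg : (g : GL chevE6.Idx K) ∈ gen (sys (F := K)).toAddRel (psiL chevE6 J.1)) :
    ((θ g : ↥(twistedE6 K q)) : GL chevE6.Idx K) ∈ gen (sys (F := K)).toAddRel (psiL chevE6 J.1) := by
  obtain ⟨π, hπ⟩ := I.exists_perm_pos hB hN hS starW hU hV
  obtain ⟨e0, e1, e2, e3, e4, e5⟩ := e_s
  let j1 : {J : List ℕ // J ∈ Js} := ⟨[1], by decide⟩
  let j3 : {J : List ℕ // J ∈ Js} := ⟨[3], by decide⟩
  let j5 : {J : List ℕ // J ∈ Js} := ⟨[0, 5], by decide⟩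
  let j2 : {J : List ℕ // J ∈ Js} := ⟨[2, 4], by decide⟩
  have hcases : ∀ j : {J : List ℕ // J ∈ Js}, j = j1 ∨ j = j3 ∨ j = j5 ∨ j = j2 := by
    rintro ⟨J, hJ⟩
    simp only [Js, List.mem_cons, List.not_mem_nil, or_false] at hJ
    rcases hJ with rfl | rfl | rfl | rfl
    · exact Or.inl rfl
    · exact Or.inr (Or.inl rfl)
    · exact Or.inr (Or.inr (Or.inl rfl))
    · exact Or.inr (Or.inr (Or.inr rfl))
  let sz : {J : List ℕ // J ∈ Js} → ℕ := fun j => Nat.card ↥(gen (sys (F := K)).toAddRel (psiL chevE6 j.1) ⊓ T.Fx)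
  have s1 : sz j1 = q := card1 hρ hτ hφ hq hK (by decide) e1 (by decide +kernel) (by decide +kernel) (by decide +kernel)
  have s3 : sz j3 = q := card1 hρ hτ hφ hq hK (by decide) e3 (by decide +kernel) (by decide +kernel) (by decide +kernel)
  have s5 : sz j5 = q ^ 2 := (card2 hρ hτ hφ2 (by decide) (by decide) e0 e5 (by decide +kernel) (by decide +kernel)
        (by decide +kernel) (by decide +kernel) (by decide +kernel) (by decide +kernel) (by decide +kernel)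
        (by decide +kernel) (by decide +kernel)).trans hK
  have s2 : sz j2 = q ^ 2 := (card2 hρ hτ hφ2 (by decide) (by decide) e2 e4 (by decide +kernel) (by decide +kernel)
        (by decide +kernel) (by decide +kernel) (by decide +kernel) (by decide +kernel) (by decide +kernel)
        (by decide +kernel) (by decide +kernel)).trans hK
  have hle : ∀ j, sz j ≤ sz (π j) := fun j => I.card_le_of_perm j.2 (hπ j)
  have hq2 : q < q ^ 2 := by nlinarith
  have hbig : ∀ j, sz j = q ^ 2 → π j = j5 ∨ π j = j2 := by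
    intro j hj
    have h := hle j
    rw [hj] at h
    rcases hcases (π j) with h' | h' | h' | h'
    · rw [h', s1] at h
      omega
    · rw [h', s3] at h
      omega
    · exact Or.inl h'
    · exact Or.inr h'
  have hne : ∀ {a b : {J : List ℕ // J ∈ Js}}, a.1 ≠ b.1 → a ≠ b := fun h h' => h (congrArg Subtype.val h')
  have hcomm : ∀ j k : {J : List ℕ // J ∈ Js},
      (∀ x ∈ gen (sys (F := K)).toAddRel (psiL chevE6 j.1), ∀ y ∈ gen (sys (F := K)).toAddRel (psiL chevE6 k.1), Commute x y) →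
      sz (π j) ≤ sz j → sz (π k) ≤ sz k → ∀ x' y' : ↥(twistedE6 K q),
      (x' : GL chevE6.Idx K) ∈ gen (sys (F := K)).toAddRel (psiL chevE6 (π j).1) →
      (y' : GL chevE6.Idx K) ∈ gen (sys (F := K)).toAddRel (psiL chevE6 (π k).1) →
      Commute (x' : GL chevE6.Idx K) (y' : GL chevE6.Idx K) := by
    intro j k hjk h1 h2 x' y' hx' hy'
    obtain ⟨x, hx, rfl⟩ := surj_of_perm I j.2 (hπ j) h1 x' hx'
    obtain ⟨y, hy, rfl⟩ := surj_of_perm I k.2 (hπ k) h2 y' hy'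
    have h3 : Commute x y := Subtype.ext (hjk _ hx _ hy).eq
    have h4 := h3.map θ
    exact congrArg Subtype.val h4.eq
  have hX3 : Xr 39 (1 : K) ∈ twistedE6 K q := X_single_mem hφ (by simp [e6p4]) (map_one φ)
  have hX2 : w2 φ 42 37 1 ∈ twistedE6 K q := w2_mem hφ (rs := (42, 37)) (by simp [e6p3, e6p5]) 1
  have hG3 : Xr 39 (1 : K) ∈ gen (sys (F := K)).toAddRel (psiL chevE6 [3]) := X_mem_gen _ (by rw [← e3]; exact mem_psiL (by simp)) _
  have hG2 : w2 φ 42 37 1 ∈ gen (sys (F := K)).toAddRel (psiL chevE6 [2, 4]) := by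
    rw [w2_xJ (by decide) e2 e4]
    exact xJ_mem _ _
  have hbad : ∀ j k : {J : List ℕ // J ∈ Js},
      (∀ x ∈ gen (sys (F := K)).toAddRel (psiL chevE6 j.1), ∀ y ∈ gen (sys (F := K)).toAddRel (psiL chevE6 k.1), Commute x y) →
      sz j3 ≤ sz j → sz j2 ≤ sz k → ¬ (π j = j3 ∧ π k = j2) := by
    rintro j k hjk h1 h2 ⟨h3, h4⟩
    have := hcomm j k hjk (by rw [h3]; exact h1) (by rw [h4]; exact h2) ⟨_, hX3⟩ ⟨_, hX2⟩
      (by rw [h3]; exact hG3) (by rw [h4]; exact hG2)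
    exact not_comm φ this
  have hmain := perm4 j1 j3 j5 j2 hcases (hne (by decide)) (hne (by decide)) (hne (by decide)) (hne (by decide))
    (hne (by decide)) (hne (by decide)) π (hbig j5 s5) (hbig j2 s2)
    (hbad j1 j2 comm12 (by rw [s1, s3]) (le_of_eq rfl))
    (hbad j1 j5 comm15 (by rw [s1, s3]) (by rw [s2, s5]))
    (hbad j3 j5 comm35 le_rfl (by rw [s2, s5]))
  obtain ⟨p1, p3, p5, p2⟩ := hmain
  have key : π J = J := by
    rcases hcases J with rfl | rfl | rfl | rfl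
    · exact p1
    · exact p3
    · exact p5
    · exact p2
  have := hπ J g hg
  rwa [key] at this

theorem cart_chk : chevE6.cartan 1 (chevE6.simple 3) = -1 ∧ chevE6.cartan 3 (chevE6.simple 2) = -1 ∧
    chevE6.cartan 3 (chevE6.simple 4) = -1 ∧ chevE6.cartan 2 (chevE6.simple 0) = -1 ∧
    chevE6.cartan 4 (chevE6.simple 0) = 0 ∧ chevE6.cartan 2 (chevE6.simple 5) = 0 ∧
    chevE6.cartan 4 (chevE6.simple 5) = -1 := by decide +kernel

include hφ hφ2 hρ hτ I in
/-- The field automorphisms on the orbits are compatible. -/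
theorem hlink (θ : ↥(twistedE6 K q) ≃* ↥(twistedE6 K q)) (c : ∀ a, (↥((fam hφ hρ hτ I).S a))ˣ)
    (σ : ∀ a, ↥((fam hφ hρ hτ I).S a) ≃+* ↥((fam hφ hρ hτ I).S a))
    (ht : ∀ a t, θ (((fam hφ hρ hτ I).orb a).xG t) = ((fam hφ hρ hτ I).orb a).xG ((c a : ↥((fam hφ hρ hτ I).S a)) * σ a t) ∧
      θ (((fam hφ hρ hτ I).orb a).yG hc_E6 hη_E6 t) = ((fam hφ hρ hτ I).orb a).yG hc_E6 hη_E6 (((c a)⁻¹ : (↥((fam hφ hρ hτ I).S a))ˣ) * σ a t)) :
    ∃ σ₀ : K ≃+* K, ∀ a, σ a = (fam hφ hρ hτ I).res a σ₀ := by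
  let Fm := fam hφ hρ hτ I
  let σ₁ : ↥(Fm.S 2) ≃+* ↥(Fm.S 2) := σ 2
  let σ₀ : K ≃+* K :=
    { toFun := fun t => (σ₁ ⟨t, trivial⟩ : ↥(Fm.S 2)).1
      invFun := fun t => (σ₁.symm ⟨t, trivial⟩ : ↥(Fm.S 2)).1
      left_inv := fun t => by
        show (σ₁.symm (σ₁ ⟨t, trivial⟩)).1 = t
        simp
      right_inv := fun t => by
        show (σ₁ (σ₁.symm ⟨t, trivial⟩)).1 = t
        simp
      map_mul' := fun s t => by
        have : ((⟨s * t, trivial⟩ : ↥(Fm.S 2))) = ⟨s, trivial⟩ * ⟨t, trivial⟩ := rfl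
        show (σ₁ ⟨s * t, trivial⟩).1 = _
        rw [this, map_mul]
        rfl
      map_add' := fun s t => by
        have : ((⟨s + t, trivial⟩ : ↥(Fm.S 2))) = ⟨s, trivial⟩ + ⟨t, trivial⟩ := rfl
        show (σ₁ ⟨s + t, trivial⟩).1 = _
        rw [this, map_add]
        rfl }
  obtain ⟨c1, c2, c3, c4, c5, c6, c7⟩ := cart_chk
  have h01 : ∀ d : ↥(Fm.S 0), ((σ 1 ⟨d, d.2⟩ : ↥(Fm.S 1)) : K) = (σ 0 d : ↥(Fm.S 0)) := by
    refine Fm.link hc_E6 hη_E6 (a := 0) (b := 1) (fun _ h => h) ?_ (θ := θ) (c := c 0) (c' := c 1) (σ := σ 0) (σ' := σ 1)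
      (ht 0) (ht 1)
    intro d hd j' hj'
    have hj'' : j' ∈ ([3] : List ℕ) := hj'
    simp only [List.mem_cons, List.not_mem_nil, or_false] at hj''
    subst hj''
    show (([1] : List ℕ).map fun j => (RingHom.id K (d : K)) ^ chevE6.cartan j (chevE6.simple 3)).prod = (RingHom.id K (d : K))⁻¹
    simp [c1]
  have h12 : ∀ d : ↥(Fm.S 1), ((σ 2 ⟨d, trivial⟩ : ↥(Fm.S 2)) : K) = (σ 1 d : ↥(Fm.S 1)) := by
    refine Fm.link hc_E6 hη_E6 (a := 1) (b := 2) (fun _ _ => trivial) ?_ (θ := θ) (c := c 1) (c' := c 2) (σ := σ 1) (σ' := σ 2)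
      (ht 1) (ht 2)
    intro d hd j' hj'
    have hd' : φ (d : K) = d := d.2
    have hj'' : j' ∈ ([2, 4] : List ℕ) := hj'
    simp only [List.mem_cons, List.not_mem_nil, or_false] at hj''
    rcases hj'' with rfl | rfl
    · show (([3] : List ℕ).map fun j => (RingHom.id K (d : K)) ^ chevE6.cartan j (chevE6.simple 2)).prod = (e2 2 φ 2 (d : K))⁻¹
      simp [c2, e2]
    · show (([3] : List ℕ).map fun j => (RingHom.id K (d : K)) ^ chevE6.cartan j (chevE6.simple 4)).prod = (e2 2 φ 4 (d : K))⁻¹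
      simp [c3, e2, hd']
  have h23 : ∀ d : ↥(Fm.S 2), ((σ 3 ⟨d, trivial⟩ : ↥(Fm.S 3)) : K) = (σ 2 d : ↥(Fm.S 2)) := by
    refine Fm.link hc_E6 hη_E6 (a := 2) (b := 3) (fun _ _ => trivial) ?_ (θ := θ) (c := c 2) (c' := c 3) (σ := σ 2) (σ' := σ 3)
      (ht 2) (ht 3)
    intro d hd j' hj'
    have hj'' : j' ∈ ([0, 5] : List ℕ) := hj'
    simp only [List.mem_cons, List.not_mem_nil, or_false] at hj''
    rcases hj'' with rfl | rfl
    · show (([2, 4] : List ℕ).map fun j => (e2 2 φ j (d : K)) ^ chevE6.cartan j (chevE6.simple 0)).prod = (e2 0 φ 0 (d : K))⁻¹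
      simp [c4, c5, e2]
    · show (([2, 4] : List ℕ).map fun j => (e2 2 φ j (d : K)) ^ chevE6.cartan j (chevE6.simple 5)).prod = (e2 0 φ 5 (d : K))⁻¹
      simp [c6, c7, e2]
  refine ⟨σ₀, fun a => ?_⟩
  fin_cases a
  · ext d
    have a1 := h01 d
    have a2 := h12 ⟨d, d.2⟩
    exact a1.symm.trans a2.symm
  · ext d
    exact (h12 d).symm
  · ext d
    rfl
  · ext d
    exact h23 d

end

/-- The order of the field of fixed points of a Frobenius map. -/
theorem card_fixF [Fintype K] {q : ℕ} {φ : K →+* K} (hφ : ∀ t, φ t = t ^ q) (hq : 2 ≤ q)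
    (hK : Fintype.card K = q ^ 2) : Nat.card ↥(fixF φ) = q := by
  rw [← card_fixed_pow hq hK]
  refine Nat.card_congr (Equiv.subtypeEquivRight fun t => ?_)
  rw [mem_fixF, hφ]

/-- **`|Out ²E₆(q)| = 2·(3,q+1)·f`**. -/
theorem card_out_main [Fintype K] (p f : ℕ) [Fact p.Prime] [CharP K p] (hK : Fintype.card K = p ^ (2 * f))
    (hf : 1 ≤ f) : Nat.card (Cfsg.Out ↥(twistedE6 K (p ^ f))) = 2 * Nat.gcd 3 (p ^ f + 1) * f := by
  have hp : p.Prime := Fact.out
  obtain ⟨q, hqdef⟩ : ∃ q, q = p ^ f := ⟨_, rfl⟩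
  rw [← hqdef]
  have hq : IsPrimePow q := hqdef ▸ hp.isPrimePow.pow (by omega)
  have h2 : 2 ≤ q := hq.two_le
  have hK' : Fintype.card K = q ^ 2 := by rw [hK, hqdef, ← pow_mul, mul_comm]
  have hpq : p ∣ q := hqdef ▸ dvd_pow_self p (by omega)
  obtain ⟨φ, T, hφ, hφ2, hρ, hτ, I⟩ := main hq hK'
  obtain ⟨P, hB, hN, hS⟩ := I.exists_pair
  let Fm := fam hφ hρ hτ I
  have hnd : ∀ n, 1 ≤ n → ¬ p ∣ q ^ n - 1 := by
    intro n hn hd
    have h3 : p ∣ q ^ n := dvd_pow hpq (by omega)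
    have h4 : 1 ≤ q ^ n := Nat.one_le_pow _ _ (by omega)
    have h5 : p ∣ 1 := by
      have := (Nat.dvd_sub h3 hd)
      rwa [Nat.sub_sub_self h4] at this
    exact hp.one_lt.ne' (Nat.dvd_one.1 h5)
  have hnd' : ∀ n, 1 ≤ n → ¬ p ∣ q ^ n + 1 := by
    intro n hn hd
    have h3 : p ∣ q ^ n := dvd_pow hpq (by omega)
    have h5 : p ∣ 1 := (Nat.dvd_add_right h3).1 hd
    exact hp.one_lt.ne' (Nat.dvd_one.1 h5)
  set d := Nat.gcd 3 (q + 1) with hd
  have hd0 : 0 < d := Nat.gcd_pos_of_pos_left _ (by omega)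
  have hcop : Nat.Coprime d q := by
    have h3 : d ∣ q + 1 := Nat.gcd_dvd_right _ _
    have : Nat.Coprime (q + 1) q := by simp
    exact Nat.Coprime.coprime_dvd_left h3 this
  set R := (q ^ 2 - 1) * (q ^ 5 + 1) * (q ^ 6 - 1) * (q ^ 8 - 1) * (q ^ 9 + 1) * (q ^ 12 - 1) with hR
  have hord : d * Nat.card ↥(twistedE6 K q) = q ^ 36 * R := by
    rw [card_main' hq hK', hR]
    ring
  have hdR : d ∣ R := by
    have h3 : d ∣ q ^ 36 * R := ⟨_, hord.symm⟩
    exact (Nat.Coprime.pow_right 36 hcop).dvd_of_dvd_mul_left h3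
  obtain ⟨r, hr⟩ := hdR
  have hcardG : Nat.card ↥(twistedE6 K q) = q ^ 36 * r := by
    refine Nat.eq_of_mul_eq_mul_left hd0 ?_
    rw [hord, hr]
    ring
  have hpR : ¬ p ∣ R := by
    intro h
    rw [hR] at h
    rcases (hp.dvd_mul).1 h with h | h
    · rcases (hp.dvd_mul).1 h with h | h
      · rcases (hp.dvd_mul).1 h with h | h
        · rcases (hp.dvd_mul).1 h with h | h
          · rcases (hp.dvd_mul).1 h with h | h
            · exact hnd 2 (by omega) h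
            · exact hnd' 5 (by omega) h
          · exact hnd 6 (by omega) h
        · exact hnd 8 (by omega) h
      · exact hnd' 9 (by omega) h
    · exact hnd 12 (by omega) h
  have hSyl : ∃ P : Sylow p ↥(twistedE6 K q),
      (P : Subgroup ↥(twistedE6 K q)) = (chevE6.posUnipotent K).subgroupOf (twistedE6 K q) := by
    refine exists_sylow_of (m := 36 * f) (r := r) _ ?_ ?_ ?_
    · rw [card_subgroupOf', card_U hq hK', hqdef, ← pow_mul, mul_comm]
    · rw [hcardG, hqdef, ← pow_mul, mul_comm f 36]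
    · intro h
      exact hpR (hr ▸ Dvd.dvd.mul_left h d)
  have hout := Fm.card_out hc_E6 hη_E6 hB hN hS hSyl (by simp) CharDiag.ck_E6 starW
    (hid hφ hφ2 hρ hτ I hB hN hS h2 hK') (hlink hφ hφ2 hρ hτ I)
  rw [hout, Cfsg.Agent.Lib.ChevAut.FieldCard.card_aut p (2 * f) hK]
  have hquot := Fm.card_quot hc_E6 hη_E6
  rw [Nat.card_pi, Fin.prod_univ_four] at hquot
  have h0 : ∀ a, Fm.S a = fixF φ → Nat.card (↥(Fm.S a))ˣ = q - 1 := by
    intro a ha
    rw [Nat.card_units, ha, card_fixF hφ h2 hK']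
  have h1 : ∀ a, Fm.S a = ⊤ → Nat.card (↥(Fm.S a))ˣ = q ^ 2 - 1 := by
    intro a ha
    rw [Nat.card_units, ha, ← hK', ← Nat.card_eq_fintype_card]
    congr 1
    exact Nat.card_congr (Equiv.subtypeUnivEquiv fun _ => trivial)
  rw [h0 0 rfl, h0 1 rfl, h1 2 rfl, h1 3 rfl] at hquot
  have hH := card_H1 hq hK'
  have hfac : q ^ 2 - 1 = (q - 1) * (q + 1) := by
    obtain ⟨s, rfl⟩ : ∃ s, q = s + 1 := ⟨q - 1, by omega⟩
    simp only [Nat.add_sub_cancel]
    have : (s + 1) ^ 2 = s * (s + 1 + 1) + 1 := by ring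
    omega
  have hHpos : 0 < Nat.card ↥(chevE6.diagonalSubgroup K ⊓ twistedE6 K q) := Nat.card_pos
  have hone : Nat.card ((∀ a, (↥(Fm.S a))ˣ) ⧸ Fm.R) = d := by
    refine Nat.eq_of_mul_eq_mul_right hHpos ?_
    rw [hquot, hH, hfac]
    ring
  rw [hone]
  ring

end Cfsg.Agent.Lib.Twisted.E6
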