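import Cfsg.Agent.Lib.Twisted.E6Torus
import Cfsg.Agent.Lib.ChevBN.ParabCent

/-!
# Two generators for `²E₆(q)`

The first generator is a conjugate of a Coxeter element of the relative Weyl group, by the root element `g` of the
fundamental short root `(42, 37)`; the second one is the product of the long root element at the highest root with
an element of the torus.
-/

set_option autoImplicit false
set_option maxRecDepth 1000000
set_option linter.unusedSectionVars false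
set_option linter.unusedVariables false
set_option linter.unusedSimpArgs false

namespace Cfsg.Agent.Lib.Twisted.E6.TwoGen

open Cfsg.Lie Cfsg.Agent.Lib.Chevalley.Reflect
open Cfsg.Agent.Lib.Chevalley.Tbl.E6 (cols colOK sys comm)
open Cfsg.Agent.Lib.ChevBN.Elem Cfsg.Agent.Lib.ChevBN.Table Cfsg.Agent.Lib.ChevBN.Opp
open Cfsg.Agent.Lib.ChevBN.FastData (tbl_chevE6)
open Cfsg.Agent.Lib.ChevBN.Rel Cfsg.Agent.Lib.ChevBN.Collect
open Cfsg.Agent.Lib.ChevBN.Monomial Cfsg.Agent.Lib.ChevBN.Pair Cfsg.Agent.Lib.ChevBN.Torus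
open Cfsg.Agent.Lib.ChevBN.Core Cfsg.Agent.Lib.ChevBN.Stmts
open Cfsg.Agent.Lib.ChevOrder.Chev Cfsg.Agent.Lib.BNPair.Basic Cfsg.Agent.Lib.BNPair.Parabolic
open Cfsg.Agent.Lib.ChevBN.BruhatForm

variable {K : Type*} [Field K]

set_option quotPrecheck false in
/-- The root elements. -/
local notation "Xr" => X (sys (F := _)).toAddRel

/-- The signs of the Weyl elements. -/
noncomputable def sgn : List ℕ → ℕ → ℤ
  | [], _ => 1
  | i :: l, r => Cfsg.Agent.Lib.Chevalley.SysOf.etaOf Cfsg.Agent.Lib.Chevalley.Tbl.E6.wT i (l.foldr chevE6.reflectRoot r) * sgn l r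

theorem cP : ∀ (l : List ℕ), (∀ i ∈ l, i < chevE6.rank) → ∀ {r : ℕ}, r < chevE6.nroots → ∀ t : K,
    prodA sys l * Xr r t * (prodA sys l)⁻¹ = Xr (l.foldr chevE6.reflectRoot r) ((sgn l r : K) * t) := by
  intro l
  induction l with
  | nil =>
    intro _ r _ t
    simp [prodA, sgn]
  | cons i l ih =>
    intro hl r hr t
    have hl' : ∀ j ∈ l, j < chevE6.rank := fun j hj => hl j (by simp [hj])
    have hi : i < chevE6.rank := hl i (by simp)
    have hr' : l.foldr chevE6.reflectRoot r < chevE6.nroots := by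
      clear ih
      induction l with
      | nil => simpa using hr
      | cons j l ih2 =>
        simp only [List.foldr_cons]
        exact tbl_chevE6.w_lt j (hl' j (by simp)) _ (ih2 (by
          intro k hk
          exact hl k (by
            rcases List.mem_cons.1 hk with h | h
            · simp [h]
            · simp [h])) (fun k hk => hl' k (by simp [hk])))
    have e : prodA (sys (F := K)) (i :: l) = A (sys (F := K)) i * prodA (sys (F := K)) l := by simp [prodA]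
    have e2 := ih hl' hr t
    have e3 := A_conj_X (sys (F := K)) hi hr' ((sgn l r : K) * t)
    rw [e, List.foldr_cons, sgn]
    calc A (sys (F := K)) i * prodA (sys (F := K)) l * Xr r t * (A (sys (F := K)) i * prodA (sys (F := K)) l)⁻¹
        = A (sys (F := K)) i * (prodA (sys (F := K)) l * Xr r t * (prodA (sys (F := K)) l)⁻¹) * (A (sys (F := K)) i)⁻¹ := by group
      _ = _ := by
        rw [e2, e3]
        congr 1
        push_cast
        ring

/-- The Coxeter element. -/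
noncomputable abbrev A0 : GL chevE6.Idx K := prodA sys [0, 5, 3, 2, 4, 1]

theorem A0_lt : ∀ i ∈ [0, 5, 3, 2, 4, 1], i < chevE6.rank := by decide

theorem A0_eq : (A0 : GL chevE6.Idx K) = prodA sys [0, 5] * prodA sys [3] * prodA sys [2, 4] * prodA sys [1] := by
  simp [prodA, mul_assoc]

theorem a_pos {r r' : ℕ} (hr : r < chevE6.nroots) (h1 : [0, 5, 3, 2, 4, 1].foldr chevE6.reflectRoot r = r')
    (h2 : sgn [0, 5, 3, 2, 4, 1] r = 1) (t : K) : A0 * Xr r t * A0⁻¹ = Xr r' t := by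
  rw [cP [0, 5, 3, 2, 4, 1] A0_lt hr, h1, h2]
  simp

theorem a_neg {r r' : ℕ} (hr : r < chevE6.nroots) (h1 : [0, 5, 3, 2, 4, 1].foldr chevE6.reflectRoot r = r')
    (h2 : sgn [0, 5, 3, 2, 4, 1] r = -1) (t : K) : A0 * Xr r t * A0⁻¹ = Xr r' (-t) := by
  rw [cP [0, 5, 3, 2, 4, 1] A0_lt hr, h1, h2]
  simp

theorem a_39 (t : K) : A0 * Xr 39 t * A0⁻¹ = Xr 65 t := a_pos (by decide +kernel) (by decide +kernel) (by decide +kernel) t
theorem a_65 (t : K) : A0 * Xr 65 t * A0⁻¹ = Xr 70 t := a_pos (by decide +kernel) (by decide +kernel) (by decide +kernel) t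
theorem a_70 (t : K) : A0 * Xr 70 t * A0⁻¹ = Xr 71 t := a_pos (by decide +kernel) (by decide +kernel) (by decide +kernel) t
theorem a_71 (t : K) : A0 * Xr 71 t * A0⁻¹ = Xr 69 t := a_pos (by decide +kernel) (by decide +kernel) (by decide +kernel) t
theorem a_69 (t : K) : A0 * Xr 69 t * A0⁻¹ = Xr 51 t := a_pos (by decide +kernel) (by decide +kernel) (by decide +kernel) t
theorem a_51 (t : K) : A0 * Xr 51 t * A0⁻¹ = Xr 32 (-t) := a_neg (by decide +kernel) (by decide +kernel) (by decide +kernel) t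
theorem a_34 (t : K) : A0 * Xr 34 t * A0⁻¹ = Xr 41 t := a_pos (by decide +kernel) (by decide +kernel) (by decide +kernel) t
theorem a_41 (t : K) : A0 * Xr 41 t * A0⁻¹ = Xr 64 (-t) := a_neg (by decide +kernel) (by decide +kernel) (by decide +kernel) t
theorem a_64 (t : K) : A0 * Xr 64 t * A0⁻¹ = Xr 68 t := a_pos (by decide +kernel) (by decide +kernel) (by decide +kernel) t
theorem a_68 (t : K) : A0 * Xr 68 t * A0⁻¹ = Xr 55 (-t) := a_neg (by decide +kernel) (by decide +kernel) (by decide +kernel) t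
theorem a_55 (t : K) : A0 * Xr 55 t * A0⁻¹ = Xr 62 t := a_pos (by decide +kernel) (by decide +kernel) (by decide +kernel) t
theorem a_62 (t : K) : A0 * Xr 62 t * A0⁻¹ = Xr 42 (-t) := a_neg (by decide +kernel) (by decide +kernel) (by decide +kernel) t
theorem a_29 (t : K) : A0 * Xr 29 t * A0⁻¹ = Xr 58 t := a_pos (by decide +kernel) (by decide +kernel) (by decide +kernel) t
theorem a_58 (t : K) : A0 * Xr 58 t * A0⁻¹ = Xr 54 t := a_pos (by decide +kernel) (by decide +kernel) (by decide +kernel) t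
theorem a_54 (t : K) : A0 * Xr 54 t * A0⁻¹ = Xr 66 (-t) := a_neg (by decide +kernel) (by decide +kernel) (by decide +kernel) t
theorem a_66 (t : K) : A0 * Xr 66 t * A0⁻¹ = Xr 67 t := a_pos (by decide +kernel) (by decide +kernel) (by decide +kernel) t
theorem a_67 (t : K) : A0 * Xr 67 t * A0⁻¹ = Xr 52 t := a_pos (by decide +kernel) (by decide +kernel) (by decide +kernel) t
theorem a_52 (t : K) : A0 * Xr 52 t * A0⁻¹ = Xr 37 t := a_pos (by decide +kernel) (by decide +kernel) (by decide +kernel) t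
theorem a_56 (t : K) : A0 * Xr 56 t * A0⁻¹ = Xr 43 t := a_pos (by decide +kernel) (by decide +kernel) (by decide +kernel) t
theorem a_43 (t : K) : A0 * Xr 43 t * A0⁻¹ = Xr 49 (-t) := a_neg (by decide +kernel) (by decide +kernel) (by decide +kernel) t
theorem a_49 (t : K) : A0 * Xr 49 t * A0⁻¹ = Xr 59 (-t) := a_neg (by decide +kernel) (by decide +kernel) (by decide +kernel) t
theorem a_59 (t : K) : A0 * Xr 59 t * A0⁻¹ = Xr 50 (-t) := a_neg (by decide +kernel) (by decide +kernel) (by decide +kernel) t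
theorem a_50 (t : K) : A0 * Xr 50 t * A0⁻¹ = Xr 38 (-t) := a_neg (by decide +kernel) (by decide +kernel) (by decide +kernel) t
theorem a_38 (t : K) : A0 * Xr 38 t * A0⁻¹ = Xr 35 (-t) := a_neg (by decide +kernel) (by decide +kernel) (by decide +kernel) t
theorem a_36 (t : K) : A0 * Xr 36 t * A0⁻¹ = Xr 40 (-t) := a_neg (by decide +kernel) (by decide +kernel) (by decide +kernel) t
theorem a_40 (t : K) : A0 * Xr 40 t * A0⁻¹ = Xr 61 (-t) := a_neg (by decide +kernel) (by decide +kernel) (by decide +kernel) t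
theorem a_61 (t : K) : A0 * Xr 61 t * A0⁻¹ = Xr 45 (-t) := a_neg (by decide +kernel) (by decide +kernel) (by decide +kernel) t
theorem a_45 (t : K) : A0 * Xr 45 t * A0⁻¹ = Xr 48 t := a_pos (by decide +kernel) (by decide +kernel) (by decide +kernel) t
theorem a_48 (t : K) : A0 * Xr 48 t * A0⁻¹ = Xr 57 t := a_pos (by decide +kernel) (by decide +kernel) (by decide +kernel) t
theorem a_57 (t : K) : A0 * Xr 57 t * A0⁻¹ = Xr 15 t := a_pos (by decide +kernel) (by decide +kernel) (by decide +kernel) t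
theorem a_25 (t : K) : A0 * Xr 25 t * A0⁻¹ = Xr 47 (-t) := a_neg (by decide +kernel) (by decide +kernel) (by decide +kernel) t
theorem a_47 (t : K) : A0 * Xr 47 t * A0⁻¹ = Xr 60 t := a_pos (by decide +kernel) (by decide +kernel) (by decide +kernel) t
theorem a_60 (t : K) : A0 * Xr 60 t * A0⁻¹ = Xr 53 (-t) := a_neg (by decide +kernel) (by decide +kernel) (by decide +kernel) t
theorem a_53 (t : K) : A0 * Xr 53 t * A0⁻¹ = Xr 63 t := a_pos (by decide +kernel) (by decide +kernel) (by decide +kernel) t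
theorem a_63 (t : K) : A0 * Xr 63 t * A0⁻¹ = Xr 44 t := a_pos (by decide +kernel) (by decide +kernel) (by decide +kernel) t
theorem a_44 (t : K) : A0 * Xr 44 t * A0⁻¹ = Xr 46 (-t) := a_neg (by decide +kernel) (by decide +kernel) (by decide +kernel) t

/-- Conjugation respects products. -/
theorem cj_mul (x y z : GL chevE6.Idx K) : x⁻¹ * (y * z) * x = (x⁻¹ * y * x) * (x⁻¹ * z * x) := by
  group

theorem rj_mul (x y z : GL chevE6.Idx K) : x * (y * z) * x⁻¹ = (x * y * x⁻¹) * (x * z * x⁻¹) := by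
  group

theorem cj_p {κ a c : ℕ} (hκ : chevE6.IsPosRoot κ) (ha : chevE6.IsPosRoot a) (h : a ≠ κ)
    (hn : chevE6.commTerms κ a = [(c, 1, 1, 1)]) (u t : K) :
    (Xr κ u)⁻¹ * Xr a t * Xr κ u = Xr a t * Xr c (-(u * t)) := by
  have h1 := commPos sys κ a hκ ha h u t
  rw [ChevalleyDatum.commWord, hn] at h1
  simp only [List.map_cons, List.map_nil, W_cons, W_nil, mul_one, pow_one, Int.cast_one, one_mul, neg_mul] at h1
  rw [mul_assoc, h1]
  group

theorem cj_n {κ a c : ℕ} (hκ : chevE6.IsPosRoot κ) (ha : chevE6.IsPosRoot a) (h : a ≠ κ)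
    (hn : chevE6.commTerms κ a = [(c, -1, 1, 1)]) (u t : K) :
    (Xr κ u)⁻¹ * Xr a t * Xr κ u = Xr a t * Xr c (u * t) := by
  have h1 := commPos sys κ a hκ ha h u t
  rw [ChevalleyDatum.commWord, hn] at h1
  simp only [List.map_cons, List.map_nil, W_cons, W_nil, mul_one, pow_one, Int.cast_neg, Int.cast_one, neg_mul, one_mul, neg_neg] at h1
  rw [mul_assoc, h1]
  group

theorem cm {a b : ℕ} (ha : a < chevE6.nroots) (hb : b < chevE6.nroots) (h1 : b ≠ a) (h2 : b ≠ chevE6.neg a)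
    (h3 : chevE6.commTerms a b = []) (x y : K) : Xr a x * Xr b y = Xr b y * Xr a x :=
  (comm_p ha hb h1 h2 h3 x y).eq

theorem cj_0 {κ a : ℕ} (hκ : κ < chevE6.nroots) (ha : a < chevE6.nroots) (h1 : a ≠ κ) (h2 : a ≠ chevE6.neg κ)
    (hn : chevE6.commTerms κ a = []) (u t : K) :
    (Xr κ u)⁻¹ * Xr a t * Xr κ u = Xr a t := by
  rw [mul_assoc, ← (cm hκ ha h1 h2 hn u t), inv_mul_cancel_left]

/-- The first element of the pair. -/
noncomputable abbrev g0 : GL chevE6.Idx K := Xr 42 1 * Xr 37 1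

theorem g_conj (y : GL chevE6.Idx K) : g0⁻¹ * y * g0 = (Xr 37 1)⁻¹ * ((Xr 42 1)⁻¹ * y * Xr 42 1) * Xr 37 1 := by
  group

theorem comm_g {r : ℕ} (hr : r < chevE6.nroots) (h1 : r ≠ 42) (h2 : r ≠ chevE6.neg 42) (h3 : r ≠ 37) (h4 : r ≠ chevE6.neg 37)
    (h5 : chevE6.commTerms 42 r = []) (h6 : chevE6.commTerms 37 r = []) (t : K) : g0 * Xr r t = Xr r t * g0 := by
  have c1 := cm (K := K) (a := 42) (b := r) (by decide +kernel) hr h1 h2 h5 1 t
  have c2 := cm (K := K) (a := 37) (b := r) (by decide +kernel) hr h3 h4 h6 1 t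
  unfold g0
  rw [mul_assoc, c2, ← mul_assoc, c1, mul_assoc]

theorem comm_71 (t : K) : g0 * Xr 71 t = Xr 71 t * g0 :=
  comm_g (by decide +kernel) (by decide +kernel) (by decide +kernel) (by decide +kernel) (by decide +kernel)
    (by decide +kernel) (by decide +kernel) t

theorem comm_69 (t : K) : g0 * Xr 69 t = Xr 69 t * g0 :=
  comm_g (by decide +kernel) (by decide +kernel) (by decide +kernel) (by decide +kernel) (by decide +kernel)
    (by decide +kernel) (by decide +kernel) t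

/-- The conjugate of the root element at `65`. -/
theorem g_65 (s : K) : g0⁻¹ * Xr 65 s * g0 = Xr 65 s * Xr 66 (-s) * (Xr 68 (-s) * Xr 69 s) := by
  have e1 := cj_p (K := K) (κ := 42) (a := 65) (c := 68) (by decide +kernel) (by decide +kernel) (by decide +kernel) (by decide +kernel) 1 s
  have e2 := cj_p (K := K) (κ := 37) (a := 65) (c := 66) (by decide +kernel) (by decide +kernel) (by decide +kernel) (by decide +kernel) 1 s
  have e3 := cj_p (K := K) (κ := 37) (a := 68) (c := 69) (by decide +kernel) (by decide +kernel) (by decide +kernel) (by decide +kernel) 1 (-(1 * s))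
  rw [g_conj, e1, cj_mul (Xr 37 1), e2, e3]
  simp

/-- The short root element at `(66, 68)`. -/
noncomputable def xn (φ : K →+* K) (t : K) : GL chevE6.Idx K := Xr 66 (φ t) * Xr 68 t

/-- The conjugate of the short root element at `(66, 68)`. -/
theorem g_xn (φ : K →+* K) (t : K) : g0⁻¹ * xn φ t * g0 = xn φ t * Xr 69 (-(φ t + t)) := by
  have e1 := cj_p (K := K) (κ := 42) (a := 66) (c := 69) (by decide +kernel) (by decide +kernel) (by decide +kernel) (by decide +kernel) 1 (φ t)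
  have e2 := cj_0 (K := K) (κ := 42) (a := 68) (by decide +kernel) (by decide +kernel) (by decide +kernel) (by decide +kernel) (by decide +kernel) 1 t
  have e3 := cj_0 (K := K) (κ := 37) (a := 66) (by decide +kernel) (by decide +kernel) (by decide +kernel) (by decide +kernel) (by decide +kernel) 1 (φ t)
  have e4 := cj_0 (K := K) (κ := 37) (a := 69) (by decide +kernel) (by decide +kernel) (by decide +kernel) (by decide +kernel) (by decide +kernel) 1 (-(1 * φ t))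
  have e5 := cj_p (K := K) (κ := 37) (a := 68) (c := 69) (by decide +kernel) (by decide +kernel) (by decide +kernel) (by decide +kernel) 1 t
  have c1 := cm (K := K) (a := 69) (b := 68) (by decide +kernel) (by decide +kernel) (by decide +kernel) (by decide +kernel) (by decide +kernel) (-(1 * φ t)) t
  unfold xn
  rw [g_conj, cj_mul (Xr 42 1), e1, e2, cj_mul (Xr 37 1), cj_mul (Xr 37 1), e3, e4, e5]
  rw [mul_assoc (Xr 66 _), ← mul_assoc (Xr 69 _), c1, mul_assoc (Xr 68 _), X_mul, mul_assoc]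
  simp [neg_add, add_comm]

/-- The element at `(58, 41)`. -/
noncomputable def xe (φ : K →+* K) (t : K) : GL chevE6.Idx K := Xr 58 (φ t) * Xr 41 t

/-- The element at `(59, 45)`. -/
noncomputable def xs (φ : K →+* K) (t : K) : GL chevE6.Idx K := Xr 59 (-φ t) * Xr 45 t

theorem g_xe (φ : K →+* K) (t : K) : (xe φ t)⁻¹ * (g0⁻¹ * xe φ t * g0) = xs φ t := by
  have e1 := cj_0 (K := K) (κ := 42) (a := 58) (by decide +kernel) (by decide +kernel) (by decide +kernel) (by decide +kernel) (by decide +kernel) 1 (φ t)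
  have e2 := cj_n (K := K) (κ := 42) (a := 41) (c := 45) (by decide +kernel) (by decide +kernel) (by decide +kernel) (by decide +kernel) 1 t
  have e3 := cj_p (K := K) (κ := 37) (a := 58) (c := 59) (by decide +kernel) (by decide +kernel) (by decide +kernel) (by decide +kernel) 1 (φ t)
  have e4 := cj_0 (K := K) (κ := 37) (a := 41) (by decide +kernel) (by decide +kernel) (by decide +kernel) (by decide +kernel) (by decide +kernel) 1 t
  have e5 := cj_0 (K := K) (κ := 37) (a := 45) (by decide +kernel) (by decide +kernel) (by decide +kernel) (by decide +kernel) (by decide +kernel) 1 (1 * t)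
  have c1 := cm (K := K) (a := 59) (b := 41) (by decide +kernel) (by decide +kernel) (by decide +kernel) (by decide +kernel) (by decide +kernel) (-φ t) t
  unfold xe xs
  rw [g_conj, cj_mul (Xr 42 1), e1, e2, cj_mul (Xr 37 1), cj_mul (Xr 37 1), e3, e4, e5]
  simp only [one_mul]
  rw [mul_assoc (Xr 58 _), ← mul_assoc (Xr 59 _), c1]
  group

/-- An element of `H` centralising the fundamental root elements is trivial. -/
theorem H_eq_one {h : GL chevE6.Idx K} (hh : h ∈ chevE6.diagonalSubgroup K)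
    (hs : ∀ i < chevE6.rank, h * Xr (chevE6.simple i) 1 * h⁻¹ = Xr (chevE6.simple i) 1) : h = 1 := by
  rw [diagonal_eq sys tbl_chevE6] at hh
  obtain ⟨c, hc, rfl⟩ := hh
  have key2 : ∀ j < chevE6.rank, chi chevE6 c (chevE6.simple j) = 1 := by
    intro j hj
    have h1 := hs j hj
    rw [hP_conj sys hc (tbl_chevE6.simple_lt hj)] at h1
    have h2 := X_inj sys tbl_chevE6 (tbl_chevE6.simple_lt hj) h1
    simpa using h2
  apply Units.ext
  rw [coe_hP sys hc, Units.val_one, ← dgMat_one]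
  congr 1
  funext s
  exact Cfsg.Agent.Lib.ChevBN.ParabCent.chi_all c hc tbl_chevE6 key2 s.isLt

/-- The torus element. -/
noncomputable def hT0 (φ : K →+* K) (ξ : K) : GL chevE6.Idx K :=
  torJ (sys (F := K)).toAddRel [1, 3, 0, 5, 2, 4] (dP φ ξ ξ 1 1)

/-- The character of the torus element. -/
noncomputable def kp (φ : K →+* K) (ξ : K) (r : ℕ) : K :=
  ([1, 3, 0, 5, 2, 4].map fun j => dP φ ξ ξ 1 1 j ^ chevE6.cartan j r).prod

theorem dP_ne {φ : K →+* K} {ξ : K} (hξ : ξ ≠ 0) (j : ℕ) : dP φ ξ ξ 1 1 j ≠ 0 := by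
  have h1 : φ ξ ≠ 0 := (map_ne_zero φ).2 hξ
  simp only [dP]
  split_ifs <;> first | exact hξ | exact h1 | exact one_ne_zero

theorem hT0_conj {φ : K →+* K} {ξ : K} (hξ : ξ ≠ 0) {r : ℕ} (hr : r < chevE6.nroots) (t : K) :
    hT0 φ ξ * Xr r t * (hT0 φ ξ)⁻¹ = Xr r (kp φ ξ r * t) :=
  torJ_conj sys (by decide) (fun i _ => dP_ne hξ i) hr t

theorem kp_eval (φ : K →+* K) (ξ : K) (r : ℕ) :
    kp φ ξ r = ξ ^ chevE6.cartan 0 r * ((φ ξ) ^ chevE6.cartan 5 r * (ξ ^ chevE6.cartan 2 r * (φ ξ) ^ chevE6.cartan 4 r)) := by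
  simp [kp, dP]

section KpVals

variable (φ : K →+* K) {ξ : K} (hξ : ξ ≠ 0)

include hξ

theorem kp_65 : kp φ ξ 65 = 1 := by
  have h1 : φ ξ ≠ 0 := (map_ne_zero φ).2 hξ
  rw [kp_eval, (by decide +kernel : chevE6.cartan 0 65 = 1), (by decide +kernel : chevE6.cartan 5 65 = 1),
    (by decide +kernel : chevE6.cartan 2 65 = -1), (by decide +kernel : chevE6.cartan 4 65 = -1)]
  simp only [zpow_one, zpow_neg]
  field_simp

theorem kp_66 : kp φ ξ 66 = φ ξ := by
  rw [kp_eval, (by decide +kernel : chevE6.cartan 0 66 = 1), (by decide +kernel : chevE6.cartan 5 66 = 0),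
    (by decide +kernel : chevE6.cartan 2 66 = -1), (by decide +kernel : chevE6.cartan 4 66 = 1)]
  simp only [zpow_one, zpow_zero, zpow_neg]
  field_simp

theorem kp_68 : kp φ ξ 68 = ξ := by
  have h1 : φ ξ ≠ 0 := (map_ne_zero φ).2 hξ
  rw [kp_eval, (by decide +kernel : chevE6.cartan 0 68 = 0), (by decide +kernel : chevE6.cartan 5 68 = 1),
    (by decide +kernel : chevE6.cartan 2 68 = 1), (by decide +kernel : chevE6.cartan 4 68 = -1)]
  simp only [zpow_one, zpow_zero, zpow_neg]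
  field_simp

omit hξ in
theorem kp_69 : kp φ ξ 69 = ξ * φ ξ := by
  rw [kp_eval, (by decide +kernel : chevE6.cartan 0 69 = 0), (by decide +kernel : chevE6.cartan 5 69 = 0),
    (by decide +kernel : chevE6.cartan 2 69 = 1), (by decide +kernel : chevE6.cartan 4 69 = 1)]
  simp

omit hξ in
theorem kp_71 : kp φ ξ 71 = 1 := by
  rw [kp_eval, (by decide +kernel : chevE6.cartan 0 71 = 0), (by decide +kernel : chevE6.cartan 5 71 = 0),
    (by decide +kernel : chevE6.cartan 2 71 = 0), (by decide +kernel : chevE6.cartan 4 71 = 0)]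
  simp

end KpVals

theorem kp_ne {φ : K →+* K} {ξ : K} (hξ : ξ ≠ 0) (r : ℕ) : kp φ ξ r ≠ 0 := by
  rw [kp_eval]
  have h1 : φ ξ ≠ 0 := (map_ne_zero φ).2 hξ
  exact mul_ne_zero (zpow_ne_zero _ hξ) (mul_ne_zero (zpow_ne_zero _ h1)
    (mul_ne_zero (zpow_ne_zero _ hξ) (zpow_ne_zero _ h1)))

theorem hT0_pow {φ : K →+* K} {ξ : K} (hξ : ξ ≠ 0) {r : ℕ} (hr : r < chevE6.nroots) (n : ℕ) (t : K) :
    hT0 φ ξ ^ n * Xr r t * (hT0 φ ξ ^ n)⁻¹ = Xr r (kp φ ξ r ^ n * t) := by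
  induction n generalizing t with
  | zero => simp
  | succ n ih =>
    have e : hT0 φ ξ ^ (n + 1) * Xr r t * (hT0 φ ξ ^ (n + 1))⁻¹ =
        hT0 φ ξ * (hT0 φ ξ ^ n * Xr r t * (hT0 φ ξ ^ n)⁻¹) * (hT0 φ ξ)⁻¹ := by
      rw [pow_succ']
      group
    rw [e, ih, hT0_conj hξ hr, pow_succ']
    congr 1
    ring

theorem hT0_H {φ : K →+* K} {ξ : K} (hξ : ξ ≠ 0) : hT0 φ ξ ∈ chevE6.diagonalSubgroup K :=
  torJ_mem_H sys tbl_chevE6 (J := [1, 3, 0, 5, 2, 4]) (by decide) (fun i _ => dP_ne hξ i)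

theorem hT0_order [Fintype K] {φ : K →+* K} {ξ : K} (hξ : ξ ≠ 0) : hT0 φ ξ ^ (Fintype.card K - 1) = 1 := by
  refine H_eq_one (Subgroup.pow_mem _ (hT0_H hξ) _) fun i hi => ?_
  rw [hT0_pow hξ (tbl_chevE6.simple_lt hi), FiniteField.pow_card_sub_one_eq_one _ (kp_ne hξ _), mul_one]

theorem X_pow_aux (r : ℕ) (t : K) (n : ℕ) : Xr r t ^ n = Xr r ((n : K) * t) := by
  induction n with
  | zero => simp
  | succ n ih =>
    rw [pow_succ, ih, X_mul]
    congr 1
    push_cast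
    ring

/-- The first reduction. -/
theorem stage_zero [Fintype K] {φ : K →+* K} {ξ : K} (hξ : ξ ≠ 0) {S : Subgroup (GL chevE6.Idx K)}
    (hb : Xr 71 1 * hT0 φ ξ ∈ S) : Xr 71 1 ∈ S ∧ hT0 φ ξ ∈ S := by
  have hc : Commute (Xr 71 (1 : K)) (hT0 φ ξ) := by
    have e := hT0_conj (φ := φ) hξ (r := 71) (by decide +kernel) 1
    rw [kp_71, one_mul] at e
    exact (mul_inv_eq_iff_eq_mul.1 e).symm
  have h1 := S.pow_mem hb (Fintype.card K - 1)
  rw [hc.mul_pow, hT0_order hξ, mul_one, X_pow_aux, Nat.cast_sub Fintype.card_pos, FiniteField.cast_card_eq_zero] at h1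
  have h2 : Xr 71 (1 : K) ∈ S := by
    have := S.inv_mem h1
    simpa using this
  refine ⟨h2, ?_⟩
  have := S.mul_mem (S.inv_mem h2) hb
  rwa [inv_mul_cancel_left] at this

section Alg

variable {q : ℕ} {φ : K →+* K} (hφ : ∀ t, φ t = t ^ q) {ξ : K} (hξ : ξ ≠ 0)
  (hgen : ∀ y : K, y ≠ 0 → ∃ n : ℕ, y = ξ ^ n) (hM : ξ ^ (q ^ 2 - 1) = 1)
  (hord : ∀ n : ℕ, 0 < n → n < q ^ 2 - 1 → ξ ^ n ≠ 1)

theorem pow_mod_aux {x : K} {N m : ℕ} (h : x ^ N = 1) : x ^ (m % N) = x ^ m := by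
  conv_rhs => rw [← Nat.div_add_mod m N, pow_add, pow_mul, h, one_pow, one_mul]

include hφ hξ hgen hM hord

theorem pow_dvd_of (hq : 2 ≤ q) {m : ℕ} (h : ξ ^ m = 1) : q ^ 2 - 1 ∣ m := by
  have h2 : ξ ^ (m % (q ^ 2 - 1)) = 1 := by
    rw [pow_mod_aux hM, h]
  have hpos : 0 < q ^ 2 - 1 := by
    have : 2 ^ 2 ≤ q ^ 2 := Nat.pow_le_pow_left hq 2
    omega
  have hlt := Nat.mod_lt m hpos
  by_cases h0 : m % (q ^ 2 - 1) = 0
  · exact Nat.dvd_of_mod_eq_zero h0
  · exact absurd h2 (hord _ (Nat.pos_of_ne_zero h0) hlt)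

/-- The norm of a generator generates the rational points. -/
theorem norm_gen (hq : 2 ≤ q) {t : K} (ht : φ t = t) (ht0 : t ≠ 0) :
    ∃ n : ℕ, t = (ξ * φ ξ) ^ n := by
  obtain ⟨j, rfl⟩ := hgen t ht0
  have h1 : ξ ^ (j * (q - 1)) = 1 := by
    have h2 : (ξ ^ j) ^ q = ξ ^ j := by rw [← hφ, ht]
    have h5 : (ξ ^ j) ^ q = (ξ ^ j) ^ (q - 1) * ξ ^ j := by
      rw [← pow_succ]
      congr 1
      omega
    rw [h5] at h2
    have h3 : ξ ^ j ≠ 0 := pow_ne_zero _ hξ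
    have h4 := mul_right_cancel₀ h3 (h2.trans (one_mul _).symm)
    rwa [← pow_mul] at h4
  have h2 := pow_dvd_of hφ hξ hgen hM hord hq h1
  have e : q ^ 2 - 1 = (q - 1) * (q + 1) := by
    obtain ⟨k, rfl⟩ : ∃ k, q = k + 1 := ⟨q - 1, by omega⟩
    simp only [Nat.add_sub_cancel]
    rw [Nat.sub_eq_iff_eq_add (Nat.one_le_pow _ _ (by omega))]
    ring
  rw [e, mul_comm j] at h2
  have h3 : q + 1 ∣ j := Nat.dvd_of_mul_dvd_mul_left (by omega) h2
  obtain ⟨n, rfl⟩ := h3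
  refine ⟨n, ?_⟩
  rw [hφ, pow_mul]
  congr 1
  ring

end Alg

theorem mem_conj {S : Subgroup (GL chevE6.Idx K)} {x y : GL chevE6.Idx K} (hx : x ∈ S) (hy : y ∈ S) :
    x * y * x⁻¹ ∈ S :=
  S.mul_mem (S.mul_mem hx hy) (S.inv_mem hx)

theorem rot_f {S : Subgroup (GL chevE6.Idx K)} {A x y : GL chevE6.Idx K} (hA : A ∈ S) (e : A * x * A⁻¹ = y) (hx : x ∈ S) : y ∈ S := by
  rw [← e]
  exact mem_conj hA hx

theorem rot_b {S : Subgroup (GL chevE6.Idx K)} {A x y : GL chevE6.Idx K} (hA : A ∈ S) (e : A * x * A⁻¹ = y) (hy : y ∈ S) : x ∈ S := by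
  have e2 : x = A⁻¹ * y * A := by
    rw [← e]
    group
  rw [e2]
  exact S.mul_mem (S.mul_mem (S.inv_mem hA) hy) hA

/-- The subgroup of elements whose conjugate by `g⁻¹` lies in a given subgroup. -/
noncomputable def Sg (g : GL chevE6.Idx K) (S : Subgroup (GL chevE6.Idx K)) : Subgroup (GL chevE6.Idx K) :=
  S.comap (MulAut.conj g⁻¹).toMonoidHom

theorem mem_Sg {g y : GL chevE6.Idx K} {S : Subgroup (GL chevE6.Idx K)} : y ∈ Sg g S ↔ g⁻¹ * y * g ∈ S := by
  simp [Sg, Subgroup.mem_comap, MulAut.conj_apply]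

theorem Sg_comm {g y : GL chevE6.Idx K} {S : Subgroup (GL chevE6.Idx K)} (h : g * y = y * g) : y ∈ Sg g S ↔ y ∈ S := by
  rw [mem_Sg, mul_assoc, ← h, inv_mul_cancel_left]

theorem hT0_v {φ : K →+* K} {ξ : K} (hξ : ξ ≠ 0) (a b c : K) :
    hT0 φ ξ * (Xr 65 a * (Xr 66 b * Xr 68 c)) * (hT0 φ ξ)⁻¹ = Xr 65 a * (Xr 66 (φ ξ * b) * Xr 68 (ξ * c)) := by
  rw [rj_mul, rj_mul, hT0_conj hξ (by decide +kernel), hT0_conj hξ (by decide +kernel), hT0_conj hξ (by decide +kernel),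
    kp_65 φ hξ, kp_66 φ hξ, kp_68 φ hξ, one_mul]

theorem v_y (φ : K →+* K) (ξ : K) :
    (Xr 65 1 * (Xr 66 (-1) * Xr 68 (-1)))⁻¹ * (Xr 65 1 * (Xr 66 (φ ξ * (-1)) * Xr 68 (ξ * (-1)))) =
      Xr 66 (1 - φ ξ) * Xr 68 (1 - ξ) := by
  have c1 := cm (K := K) (a := 68) (b := 66) (by decide +kernel) (by decide +kernel) (by decide +kernel) (by decide +kernel) (by decide +kernel) 1 (1 - φ ξ)
  have e1 : (Xr 65 1 * (Xr 66 (-1) * Xr 68 (-1)))⁻¹ * (Xr 65 1 * (Xr 66 (φ ξ * (-1)) * Xr 68 (ξ * (-1)))) =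
      (Xr 68 (-1))⁻¹ * ((Xr 66 (-1))⁻¹ * Xr 66 (φ ξ * (-1))) * Xr 68 (ξ * (-1)) := by
    group
  rw [e1, X_inv, X_inv, X_mul]
  simp only [neg_neg]
  have e2 : (1 : K) + φ ξ * (-1) = 1 - φ ξ := by ring
  rw [e2, c1, mul_assoc, X_mul]
  congr 2
  ring

theorem hT0_xn {φ : K →+* K} {ξ : K} (hξ : ξ ≠ 0) (n : ℕ) (t : K) :
    hT0 φ ξ ^ n * xn φ t * (hT0 φ ξ ^ n)⁻¹ = xn φ (ξ ^ n * t) := by
  unfold xn
  rw [rj_mul, hT0_pow hξ (by decide +kernel), hT0_pow hξ (by decide +kernel), kp_66 φ hξ, kp_68 φ hξ, map_mul, map_pow]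

section Main

variable [Fintype K] {q : ℕ} {φ : K →+* K} {T : Tw (sys (F := K)).toAddRel}
  (hφ : ∀ t, φ t = t ^ q) (hφ2 : ∀ t, φ (φ t) = t) (hρ : T.ρ = ρ0)
  (hτ : ∀ r t, T.τ r t = ((ε0 r : ℤ) : K) * φ t)
  (I : Inst sys tbl_chevE6 T Js cl (twistedE6 K q))

include hφ hφ2 in
theorem core (hq2 : 2 ≤ q) {ξ : K} (hξ : ξ ≠ 0)
    (hgen : ∀ y : K, y ≠ 0 → ∃ n : ℕ, y = ξ ^ n) (hM : ξ ^ (q ^ 2 - 1) = 1)
    (hord : ∀ n : ℕ, 0 < n → n < q ^ 2 - 1 → ξ ^ n ≠ 1)
    {S : Subgroup (GL chevE6.Idx K)} (hX : Xr 71 1 ∈ S) (hh : hT0 φ ξ ∈ S)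
    (ha : g0⁻¹ * A0 * g0 ∈ S) : twistedE6 K q ≤ S := by
  have hA : (A0 : GL chevE6.Idx K) ∈ Sg g0 S := mem_Sg.2 ha
  have h691 : Xr 69 (1 : K) ∈ S :=
    (Sg_comm (comm_69 1)).1 (rot_f hA (a_71 1) ((Sg_comm (comm_71 1)).2 hX))
  have h69 : ∀ t, φ t = t → Xr 69 t ∈ S := by
    intro t ht
    by_cases ht0 : t = 0
    · rw [ht0, X_zero]
      exact S.one_mem
    · obtain ⟨n, hn⟩ := norm_gen hφ hξ hgen hM hord hq2 ht ht0
      have e := hT0_pow (φ := φ) hξ (r := 69) (by decide +kernel) n 1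
      rw [kp_69, mul_one, ← hn] at e
      rw [← e]
      exact mem_conj (S.pow_mem hh n) h691
  have h69' : ∀ t, φ t = t → Xr 69 t ∈ Sg g0 S := fun t ht => (Sg_comm (comm_69 t)).2 (h69 t ht)
  have h65' : ∀ t, φ t = t → Xr 65 t ∈ Sg g0 S := fun t ht =>
    rot_b hA (a_65 t) (rot_b hA (a_70 t) (rot_b hA (a_71 t) (h69' t ht)))
  have hv : Xr 65 (1 : K) * (Xr 66 (-1 : K) * Xr 68 (-1 : K)) ∈ S := by
    have z := mem_Sg.1 (h65' 1 (map_one φ))
    rw [g_65] at z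
    have m := S.mul_mem z (S.inv_mem (h69 1 (map_one φ)))
    have e : Xr 65 (1 : K) * Xr 66 (-1 : K) * (Xr 68 (-1 : K) * Xr 69 (1 : K)) * (Xr 69 (1 : K))⁻¹ =
        Xr 65 (1 : K) * (Xr 66 (-1 : K) * Xr 68 (-1 : K)) := by group
    rwa [e] at m
  have hy : xn φ (1 - ξ) ∈ S := by
    have m := S.mul_mem (S.inv_mem hv) (mem_conj hh hv)
    rw [hT0_v hξ, v_y] at m
    have e : xn φ (1 - ξ) = Xr 66 (1 - φ ξ) * Xr 68 (1 - ξ) := by simp [xn]
    rwa [e]
  have s2 : 2 ^ 2 ≤ q ^ 2 := Nat.pow_le_pow_left hq2 2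
  have hξ1 : 1 - ξ ≠ 0 := by
    intro h
    refine hord 1 (by norm_num) (by omega) ?_
    rw [pow_one]
    exact (sub_eq_zero.1 h).symm
  have hxn : ∀ t, xn φ t ∈ S := by
    intro t
    by_cases ht0 : t = 0
    · have e : xn φ t = 1 := by simp [xn, ht0]
      rw [e]
      exact S.one_mem
    · obtain ⟨n, hn⟩ := hgen (t * (1 - ξ)⁻¹) (mul_ne_zero ht0 (inv_ne_zero hξ1))
      have e := hT0_xn (φ := φ) hξ n (1 - ξ)
      rw [← hn, inv_mul_cancel_right₀ hξ1] at e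
      rw [← e]
      exact mem_conj (S.pow_mem hh n) hy
  have hxn' : ∀ t, Xr 66 (φ t) * Xr 68 t ∈ Sg g0 S := by
    intro t
    show xn φ t ∈ Sg g0 S
    rw [mem_Sg, g_xn]
    refine S.mul_mem (hxn t) (h69 _ ?_)
    rw [map_neg, map_add, hφ2, add_comm]
  have hw' : ∀ t, Xr 37 (φ t) * Xr 42 t ∈ Sg g0 S := by
    intro t
    have r1 : Xr 67 (φ t) * Xr 55 (-t) ∈ Sg g0 S :=
      rot_f hA (x := Xr 66 (φ t) * Xr 68 t) (by rw [rj_mul, a_66, a_68]) (hxn' t)
    have r2 : Xr 52 (φ t) * Xr 62 (-t) ∈ Sg g0 S :=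
      rot_f hA (x := Xr 67 (φ t) * Xr 55 (-t)) (by rw [rj_mul, a_67, a_55]) r1
    exact rot_f hA (x := Xr 52 (φ t) * Xr 62 (-t)) (by rw [rj_mul, a_52, a_62, neg_neg]) r2
  have c42 : ∀ a b : K, Xr 42 a * Xr 37 b = Xr 37 b * Xr 42 a := fun a b =>
    cm (by decide +kernel) (by decide +kernel) (by decide +kernel) (by decide +kernel) (by decide +kernel) a b
  have hg' : (g0 : GL chevE6.Idx K) ∈ Sg g0 S := by
    have := hw' 1
    rw [map_one, ← c42] at this
    exact this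
  have hg : (g0 : GL chevE6.Idx K) ∈ S := by
    have := mem_Sg.1 hg'
    rwa [inv_mul_cancel, one_mul] at this
  have back : ∀ y, y ∈ Sg g0 S → y ∈ S := by
    intro y hy'
    have m := mem_conj hg (mem_Sg.1 hy')
    have e : g0 * (g0⁻¹ * y * g0) * g0⁻¹ = y := by group
    rwa [e] at m
  have hA0 : (A0 : GL chevE6.Idx K) ∈ S := back _ hA
  have h65 : ∀ t, φ t = t → Xr 65 t ∈ S := fun t ht => back _ (h65' t ht)
  have h39 : ∀ t, φ t = t → Xr 39 t ∈ S := fun t ht => rot_b hA0 (a_39 t) (h65 t ht)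
  have h51 : ∀ t, φ t = t → Xr 51 t ∈ S := fun t ht => rot_f hA0 (a_69 t) (h69 t ht)
  have h32 : ∀ t, φ t = t → Xr 32 t ∈ S := by
    intro t ht
    have := rot_f hA0 (a_51 (-t)) (h51 (-t) (by rw [map_neg, ht]))
    rwa [neg_neg] at this
  have w42 : ∀ t, w2 φ 42 37 t ∈ S := by
    intro t
    have e : w2 φ 42 37 t = Xr 37 (φ t) * Xr 42 t := by
      unfold w2
      rw [mul_one]
      exact c42 _ _
    rw [e]
    exact back _ (hw' t)
  have b1 : ∀ t, Xr 54 (-φ t) * Xr 64 t ∈ S := fun t =>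
    rot_b hA0 (y := Xr 66 (φ t) * Xr 68 t) (by rw [rj_mul, a_54, a_64, neg_neg]) (hxn t)
  have b2 : ∀ t, Xr 58 (-φ t) * Xr 41 (-t) ∈ S := fun t =>
    rot_b hA0 (y := Xr 54 (-φ t) * Xr 64 t) (by rw [rj_mul, a_58, a_41, neg_neg]) (b1 t)
  have b3 : ∀ t, Xr 29 (-φ t) * Xr 34 (-t) ∈ S := fun t =>
    rot_b hA0 (y := Xr 58 (-φ t) * Xr 41 (-t)) (by rw [rj_mul, a_29, a_34]) (b2 t)
  have hxe : ∀ t, xe φ t ∈ S := by
    intro t
    have := b2 (-t)
    simp only [map_neg, neg_neg] at this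
    exact this
  have w29 : ∀ u, w2 φ 29 34 u ∈ S := by
    intro u
    have := b3 (-φ u)
    simp only [map_neg, hφ2, neg_neg] at this
    unfold w2
    rw [mul_one]
    exact this
  have hxs : ∀ t, Xr 59 (-φ t) * Xr 45 t ∈ S := by
    intro t
    show xs φ t ∈ S
    rw [← g_xe]
    exact S.mul_mem (S.inv_mem (hxe t)) (S.mul_mem (S.mul_mem (S.inv_mem hg) (hxe t)) hg)
  have f1 : ∀ t, Xr 50 (φ t) * Xr 48 t ∈ S := fun t =>
    rot_f hA0 (x := Xr 59 (-φ t) * Xr 45 t) (by rw [rj_mul, a_59, a_45, neg_neg]) (hxs t)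
  have f2 : ∀ t, Xr 38 (-φ t) * Xr 57 t ∈ S := fun t =>
    rot_f hA0 (x := Xr 50 (φ t) * Xr 48 t) (by rw [rj_mul, a_50, a_48]) (f1 t)
  have f3 : ∀ t, Xr 35 (φ t) * Xr 15 t ∈ S := fun t =>
    rot_f hA0 (x := Xr 38 (-φ t) * Xr 57 t) (by rw [rj_mul, a_38, a_57, neg_neg]) (f2 t)
  have w15 : ∀ t, w2 φ 15 35 t ∈ S := by
    intro t
    have e : w2 φ 15 35 t = Xr 35 (φ t) * Xr 15 t := by
      unfold w2
      rw [mul_one]
      exact cm (by decide +kernel) (by decide +kernel) (by decide +kernel) (by decide +kernel) (by decide +kernel) _ _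
    rw [e]
    exact f3 t
  have b1' : ∀ t, Xr 49 (φ t) * Xr 61 (-t) ∈ S := fun t =>
    rot_b hA0 (y := Xr 59 (-φ t) * Xr 45 t) (by rw [rj_mul, a_49, a_61, neg_neg]) (hxs t)
  have b2' : ∀ t, Xr 43 (-φ t) * Xr 40 t ∈ S := fun t =>
    rot_b hA0 (y := Xr 49 (φ t) * Xr 61 (-t)) (by rw [rj_mul, a_43, a_40, neg_neg]) (b1' t)
  have b3' : ∀ t, Xr 56 (-φ t) * Xr 36 (-t) ∈ S := fun t =>
    rot_b hA0 (y := Xr 43 (-φ t) * Xr 40 t) (by rw [rj_mul, a_56, a_36, neg_neg]) (b2' t)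
  have w56 : ∀ u, w2 φ 56 36 u ∈ S := by
    intro u
    have := b3' (-φ u)
    simp only [map_neg, hφ2, neg_neg] at this
    unfold w2
    rw [mul_one]
    exact this
  have h53 : ∀ t, φ t = t → Xr 53 t ∈ S := by
    intro t ht
    have e := cj_n (K := K) (κ := 51) (a := 39) (c := 53) (by decide +kernel) (by decide +kernel) (by decide +kernel) (by decide +kernel) 1 t
    have m := S.mul_mem (S.inv_mem (h39 t ht)) (S.mul_mem (S.mul_mem (S.inv_mem (h51 1 (map_one φ))) (h39 t ht)) (h51 1 (map_one φ)))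
    rw [e, inv_mul_cancel_left, one_mul] at m
    exact m
  have h46 : ∀ t, φ t = t → Xr 46 t ∈ S := by
    intro t ht
    have := rot_f hA0 (a_44 (-t)) (rot_f hA0 (a_63 (-t)) (rot_f hA0 (a_53 (-t)) (h53 (-t) (by rw [map_neg, ht]))))
    rwa [neg_neg] at this
  have h25 : ∀ t, φ t = t → Xr 25 t ∈ S := by
    intro t ht
    have h60 : Xr 60 (-t) ∈ S := by
      refine rot_b hA0 (a_60 (-t)) ?_
      rw [neg_neg]
      exact h53 t ht
    exact rot_b hA0 (a_25 t) (rot_b hA0 (a_47 (-t)) h60)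
  refine (Subgroup.closure_le _).2 ?_
  intro g hg'
  rcases gen_form hφ hg' with ⟨t, ht, rfl | rfl | rfl | rfl⟩ | ⟨t, rfl | rfl | rfl | rfl⟩
  · exact h46 t ht
  · exact h25 t ht
  · exact h39 t ht
  · exact h32 t ht
  · exact w56 t
  · exact w15 t
  · exact w42 t
  · exact w29 t

include hφ hφ2 hρ hτ I in
theorem hT0_mem {ξ : K} (hξ : ξ ≠ 0) : hT0 φ ξ ∈ twistedE6 K q := by
  obtain ⟨h, e⟩ := exists_Θ hφ hφ2 hρ hτ I (Units.mk0 ξ hξ, Units.mk0 ξ hξ, 1, 1)
  have e2 : hT0 φ ξ = h.1 := by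
    rw [e]
    simp [hT0]
  rw [e2]
  exact h.2.2

include hφ hφ2 hρ hτ I in
/-- The group `²E₆(q)` is generated by two elements. -/
theorem two_gen_main (hq : IsPrimePow q) (hK : Fintype.card K = q ^ 2) :
    ∃ a b : ↥(twistedE6 K q), Subgroup.closure ({a, b} : Set ↥(twistedE6 K q)) = ⊤ := by
  classical
  have hq2 := hq.two_le
  obtain ⟨ζ, hζ⟩ := IsCyclic.exists_generator (α := Kˣ)
  have hξ : (ζ : K) ≠ 0 := ζ.ne_zero
  have hgen : ∀ y : K, y ≠ 0 → ∃ n : ℕ, y = (ζ : K) ^ n := by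
    intro y hy
    have h1 := hζ (Units.mk0 y hy)
    have h2 : Units.mk0 y hy ∈ Submonoid.powers ζ := mem_powers_iff_mem_zpowers.2 h1
    obtain ⟨n, hn⟩ := Submonoid.mem_powers_iff _ _ |>.1 h2
    refine ⟨n, ?_⟩
    have := congrArg Units.val hn
    simpa using this.symm
  have hM : (ζ : K) ^ (q ^ 2 - 1) = 1 := by
    rw [← hK]
    exact FiniteField.pow_card_sub_one_eq_one _ hξ
  have hcard : orderOf ζ = q ^ 2 - 1 := by
    rw [orderOf_eq_card_of_forall_mem_zpowers hζ, Nat.card_eq_fintype_card, Fintype.card_units, hK]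
  have hord : ∀ n : ℕ, 0 < n → n < q ^ 2 - 1 → (ζ : K) ^ n ≠ 1 := by
    intro n h0 h1 h
    have h2 : ζ ^ n = 1 := Units.ext (by simpa using h)
    have := orderOf_le_of_pow_eq_one h0 h2
    omega
  have hAG : (A0 : GL chevE6.Idx K) ∈ twistedE6 K q := by
    rw [A0_eq]
    exact Subgroup.mul_mem _ (Subgroup.mul_mem _ (Subgroup.mul_mem _ (I.fd.n_G1 ⟨[0, 5], by simp [Js]⟩)
      (I.fd.n_G1 ⟨[3], by simp [Js]⟩)) (I.fd.n_G1 ⟨[2, 4], by simp [Js]⟩)) (I.fd.n_G1 ⟨[1], by simp [Js]⟩)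
  have hgG : (g0 : GL chevE6.Idx K) ∈ twistedE6 K q := by
    have := w2_mem hφ (rs := (42, 37)) (by simp [e6p1, e6p6, e6m1, e6m6, e6p3, e6p5, e6m3, e6m5]) (1 : K)
    simp only [w2, map_one, mul_one] at this
    exact this
  have hXG : Xr 71 (1 : K) ∈ twistedE6 K q := by
    have h39 := X_single_mem hφ (r := 39) (by simp [e6p2, e6m2, e6p4, e6m4]) (map_one φ)
    exact rot_f hAG (a_70 1) (rot_f hAG (a_65 1) (rot_f hAG (a_39 1) h39))
  have hhG := hT0_mem hφ hφ2 hρ hτ I hξ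
  let a : ↥(twistedE6 K q) := ⟨g0⁻¹ * A0 * g0,
    Subgroup.mul_mem _ (Subgroup.mul_mem _ (Subgroup.inv_mem _ hgG) hAG) hgG⟩
  let b : ↥(twistedE6 K q) := ⟨Xr 71 1 * hT0 φ (ζ : K), Subgroup.mul_mem _ hXG hhG⟩
  refine ⟨a, b, ?_⟩
  let S : Subgroup (GL chevE6.Idx K) :=
    (Subgroup.closure ({a, b} : Set ↥(twistedE6 K q))).map (twistedE6 K q).subtype
  have ha : g0⁻¹ * A0 * g0 ∈ S :=
    ⟨a, Subgroup.subset_closure (by simp), rfl⟩
  have hb : Xr 71 1 * hT0 φ (ζ : K) ∈ S :=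
    ⟨b, Subgroup.subset_closure (by simp), rfl⟩
  obtain ⟨hX, hh⟩ := stage_zero hξ hb
  have hS := core hφ hφ2 hq2 hξ hgen hM hord hX hh ha
  rw [eq_top_iff]
  intro y _
  obtain ⟨z, hz, hzy⟩ := hS y.2
  have : z = y := Subtype.ext hzy
  rwa [← this]

end Main

end Cfsg.Agent.Lib.Twisted.E6.TwoGen
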